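import Cfsg.Agent.WreathTensor14.Spread

/-!
The group induced on a tensor factor, and elements carrying a member to a member.
-/

set_option autoImplicit false

namespace CfsgLib.WreathTensor14

open Matrix Function
open CfsgLib.Aschbacher (kroneckerPow kroneckerPow_mul kroneckerPow_one)
open CfsgLib.TensorMax (InM rootMap memb rootMap_apply rootMap_sq mem_memb pure_mem_memb)

variable {F : Type*} [Field F] {m t s : ℕ}

lemma toE_surjective {α : Type} [Fintype α] [DecidableEq α] :
    Function.Surjective (toE (F := F) (α := α)) :=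
  (LinearMap.GeneralLinearGroup.generalLinearEquiv F (α → F)).surjective.comp
    Matrix.GeneralLinearGroup.toLin.surjective

lemma mem_mono_one (g : TV F m 1 ≃ₗ[F] TV F m 1) : g ∈ monoGroup F m 1 := by
  obtain ⟨u, rfl⟩ := toE_surjective g
  refine ⟨1, fun _ => Cfsg.Geo.glReindex (Equiv.funUnique (Fin 1) (Fin m)) u, ?_⟩
  rw [map_one, mul_one, kronE, MonoidHom.comp_apply]
  congr 1
  refine Units.ext (Matrix.ext fun x y => ?_)
  rw [coe_krGL, kroneckerPow, Matrix.of_apply, Fin.prod_univ_one]
  change u.val x y = u.val ((Equiv.funUnique (Fin 1) (Fin m)).symm (x 0))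
    ((Equiv.funUnique (Fin 1) (Fin m)).symm (y 0))
  have e : ∀ z : Fin 1 → Fin m, (Equiv.funUnique (Fin 1) (Fin m)).symm (z 0) = z := fun z =>
    funext fun i => congrArg z (Subsingleton.elim _ _)
  rw [e, e]

lemma mem_mono_zero (g : TV F m 0 ≃ₗ[F] TV F m 0) (h : g = 1) : g ∈ monoGroup F m 0 := by
  subst h; exact one_mem _

/-- The member of the factor `k` over `w`, in tensor coordinates. -/
def smemb (k : Fin (s + 1)) (w : Fin m → F) : Submodule F (TV F m (s + 1)) :=
  (memb w).comap (slot k).toLinearMap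

lemma mem_smemb {k : Fin (s + 1)} {w : Fin m → F} {x : TV F m (s + 1)} :
    x ∈ smemb k w ↔ slot k x ∈ memb w := Iff.rfl

lemma smemb_eq_map (k : Fin (s + 1)) (w : Fin m → F) :
    smemb k w = (memb w).map (slot k).symm.toLinearMap := by
  rw [smemb, Submodule.map_equiv_eq_comap_symm]; rfl

lemma symm_pure_mem (k : Fin (s + 1)) (u : TV F m s) (w : Fin m → F) :
    (slot k).symm (TensorMax.pure u w) ∈ smemb k w := by
  rw [mem_smemb, LinearEquiv.apply_symm_apply]; exact pure_mem_memb u w

/-- The root map of the factor `k`. -/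
def rootV (k : Fin (s + 1)) (w ψ : Fin m → F) : TV F m (s + 1) →ₗ[F] TV F m (s + 1) :=
  (slot k).symm.toLinearMap ∘ₗ rootMap (1 : Matrix (Fin s → Fin m) (Fin s → Fin m) F) w ψ ∘ₗ
    (slot k).toLinearMap

lemma rootV_apply (k : Fin (s + 1)) (w ψ : Fin m → F) (x : TV F m (s + 1)) :
    rootV k w ψ x = (slot k).symm (TensorMax.pure (slot k x *ᵥ ψ) w) := by
  simp [rootV, rootMap_apply]

lemma rootV_mem_smemb (k : Fin (s + 1)) (w ψ : Fin m → F) (x : TV F m (s + 1)) :
    rootV k w ψ x ∈ smemb k w := by rw [rootV_apply]; exact symm_pure_mem _ _ _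

variable {M : Subgroup (TV F m (s + 1) ≃ₗ[F] TV F m (s + 1))}

lemma inV_rootV (hM : Base M) (k : Fin (s + 1)) {w ψ : Fin m → F} (h : w ⬝ᵥ ψ = 0) :
    InV M (rootV k w ψ) :=
  inM_slotGroup_iff.1 (inM_one (hM.rightSL k) h)

/-- The extension of a permutation of the remaining factors. -/
def extPerm (k j : Fin (s + 1)) (σ : Equiv.Perm (Fin s)) : Equiv.Perm (Fin (s + 1)) :=
  (finSuccEquiv' j).trans ((Equiv.optionCongr σ).trans (finSuccEquiv' k).symm)

@[simp] lemma extPerm_self (k j : Fin (s + 1)) (σ : Equiv.Perm (Fin s)) : extPerm k j σ j = k := by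
  simp [extPerm]

@[simp] lemma extPerm_succAbove (k j : Fin (s + 1)) (σ : Equiv.Perm (Fin s)) (i : Fin s) :
    extPerm k j σ (j.succAbove i) = k.succAbove (σ i) := by
  simp [extPerm]

lemma extPerm_cube (k : Fin (s + 1)) {σ : Equiv.Perm (Fin s)} (h : σ ^ 3 = 1) :
    extPerm k k σ ^ 3 = 1 := by
  refine Equiv.ext fun l => ?_
  rcases Fin.eq_self_or_eq_succAbove k l with rfl | ⟨i, rfl⟩
  · simp [pow_succ]
  · have := Equiv.congr_fun h i
    simp only [pow_succ, pow_zero, one_mul, Equiv.Perm.mul_apply, Equiv.Perm.one_apply] at this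
    simp [pow_succ, this]

/-- An element splitting as `a ⊗ b` with `a` monomial is monomial. -/
lemma mono_of_split {g : TV F m (s + 1) ≃ₗ[F] TV F m (s + 1)} {k j : Fin (s + 1)}
    {a : TV F m s ≃ₗ[F] TV F m s} (ha : a ∈ monoGroup F m s) {b : GL (Fin m) F}
    (h : ∀ u w, slot j (g ((slot k).symm (TensorMax.pure u w)))
      = TensorMax.pure (a u) (b.val *ᵥ w)) :
    g ∈ monoGroup F m (s + 1) := by
  obtain ⟨σ, gs, rfl⟩ := ha
  refine ⟨(extPerm k j σ⁻¹)⁻¹, Fin.insertNth (α := fun _ => GL (Fin m) F) j b gs,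
    linearEquiv_ext_pv fun x => (slot j).injective ?_⟩
  rw [LinearEquiv.mul_apply, permE_pv, kronE_pv, slot_pv]
  have := h (pv (Fin.removeNth k x)) (x k)
  rw [← slot_pv, LinearEquiv.symm_apply_apply, LinearEquiv.mul_apply, permE_pv, kronE_pv] at this
  rw [this]
  congr 1
  · congr 1
    funext i
    simp [Fin.removeNth_apply]
  · simp

/-- The split maps of `M` on the complement of the factor `k`. -/
def factor (M : Subgroup (TV F m (s + 1) ≃ₗ[F] TV F m (s + 1))) (k : Fin (s + 1)) :
    Subgroup (TV F m s ≃ₗ[F] TV F m s) where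
  carrier := {a | ∃ g ∈ M, ∃ b : GL (Fin m) F, ∀ u w,
    slotConj k g (TensorMax.pure u w) = TensorMax.pure (a u) (b.val *ᵥ w)}
  one_mem' := ⟨1, M.one_mem, 1, fun u w => by simp⟩
  mul_mem' := by
    rintro a a' ⟨g, hg, b, h⟩ ⟨g', hg', b', h'⟩
    refine ⟨g * g', M.mul_mem hg hg', b * b', fun u w => ?_⟩
    rw [map_mul, LinearEquiv.mul_apply, h', h, Units.val_mul, ← mulVec_mulVec]
    rfl
  inv_mem' := by
    rintro a ⟨g, hg, b, h⟩
    refine ⟨g⁻¹, M.inv_mem hg, b⁻¹, fun u w => (slotConj k g).injective ?_⟩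
    rw [h, mulVec_mulVec, ← Units.val_mul, mul_inv_cancel, Units.val_one, one_mulVec,
      ← LinearEquiv.mul_apply, ← map_mul, mul_inv_cancel, map_one]
    change TensorMax.pure u w = TensorMax.pure (a (a.symm u)) w
    rw [a.apply_symm_apply]

lemma Base.factor (hM : Base M) (k : Fin (s + 1)) :
    Base (CfsgLib.WreathTensor14.factor M k) := by
  refine ⟨fun gs hgs => ⟨kronE (Fin.insertNth (α := fun _ => GL (Fin m) F) k 1 gs),
    hM.kron_mem _ fun i => ?_, 1, fun u w => ?_⟩, fun σ hσ => ⟨permE (extPerm k k σ),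
    hM.perm_mem _ (extPerm_cube k hσ), 1, fun u w => ?_⟩⟩
  · rcases Fin.eq_self_or_eq_succAbove k i with rfl | ⟨l, rfl⟩ <;> simp [hgs]
  · rw [kronE_insertNth_left, TensorMax.pure, mul_vecMulVec, Units.val_one, one_mulVec]
    rfl
  · have : (slotConj k (permE (extPerm k k σ))).toLinearMap ∘ₗ TensorMax.pureL w
        = TensorMax.pureL w ∘ₗ (permE (F := F) (m := m) σ).toLinearMap := by
      refine linearMap_ext_pv fun x => ?_
      simp only [LinearMap.comp_apply, LinearEquiv.coe_coe, TensorMax.pureL_apply, slotConj_apply,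
        permE_pv]
      rw [← slot_pv_insertNth k w x, LinearEquiv.symm_apply_apply, permE_pv, slot_pv]
      have hk : (extPerm k k σ)⁻¹ k = k := by
        rw [Equiv.Perm.inv_eq_iff_eq]; simp
      congr 1
      · congr 1
        funext i
        have hi : (extPerm k k σ)⁻¹ (k.succAbove i) = k.succAbove (σ⁻¹ i) := by
          rw [Equiv.Perm.inv_eq_iff_eq]; simp
        rw [Fin.removeNth_apply, hi]
        simp
      · simp [hk]
    rw [Units.val_one, one_mulVec]
    exact LinearMap.congr_fun this u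

lemma emb_mem_of_family (τ : Matrix (Fin t → Fin m) (Fin t → Fin m) F) (j : Fin t)
    (g : GL (Fin m) F) :
    kroneckerPow (fun i => ((Pi.mulSingle j g : Fin t → GL (Fin m) F) i).val) * τ
      * kroneckerPow (fun i => (((Pi.mulSingle j g : Fin t → GL (Fin m) F) i)⁻¹).val)
      = emb j g.val * τ * emb j (g⁻¹).val := by
  have h1 : (fun i => ((Pi.mulSingle j g : Fin t → GL (Fin m) F) i).val)
      = Pi.mulSingle j g.val := by
    funext i; rcases eq_or_ne i j with rfl | h <;> simp [*]
  have h2 : (fun i => (((Pi.mulSingle j g : Fin t → GL (Fin m) F) i)⁻¹).val)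
      = Pi.mulSingle j (g⁻¹).val := by
    funext i; rcases eq_or_ne i j with rfl | h <;> simp [*]
  rw [h1, h2]; rfl

/-- A matrix whose commutators with all products are scalar is scalar. -/
lemma scalar_of_forall_sub_scalar (hm : 3 ≤ m) (τ : Matrix (Fin t → Fin m) (Fin t → Fin m) F)
    (h : ∀ gs : Fin t → GL (Fin m) F, (∀ i, (gs i).val.det = 1) → ∃ c : F,
      τ - kroneckerPow (fun i => (gs i).val) * τ * kroneckerPow (fun i => ((gs i)⁻¹).val)
        = c • 1) :
    ∃ c : F, τ = c • 1 := by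
  by_contra hns
  push Not at hns
  let S : Submodule F (Matrix (Fin t → Fin m) (Fin t → Fin m) F) :=
    { carrier := {τ | ∀ gs : Fin t → GL (Fin m) F, (∀ i, (gs i).val.det = 1) → ∃ c : F,
        τ - kroneckerPow (fun i => (gs i).val) * τ * kroneckerPow (fun i => ((gs i)⁻¹).val)
          = c • 1}
      add_mem' := fun {a b} ha hb gs hgs => by
        obtain ⟨c, hc⟩ := ha gs hgs
        obtain ⟨d, hd⟩ := hb gs hgs
        refine ⟨c + d, ?_⟩
        rw [add_smul, ← hc, ← hd]
        noncomm_ring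
      zero_mem' := fun gs _ => ⟨0, by simp⟩
      smul_mem' := fun d a ha gs hgs => by
        obtain ⟨c, hc⟩ := ha gs hgs
        refine ⟨d * c, ?_⟩
        rw [mul_smul, ← hc, smul_sub, Matrix.mul_smul, Matrix.smul_mul] }
  have hinv : ∀ (j : Fin t) (g h : Matrix (Fin m) (Fin m) F), g.det = 1 → h * g = 1 →
      ∀ σ ∈ S, emb j g * σ * emb j h ∈ S := by
    intro j g h hg hhg σ hσ gs hgs
    obtain ⟨u, rfl⟩ := exists_det_one_GL hg
    obtain rfl : h = (u⁻¹).val :=
      left_inv_eq_right_inv hhg (by rw [← Units.val_mul, mul_inv_cancel, Units.val_one])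
    rw [← emb_mem_of_family]
    set hs : Fin t → GL (Fin m) F := Pi.mulSingle j u
    have hhs : ∀ i, (hs i).val.det = 1 := fun i => by
      rcases eq_or_ne i j with rfl | h <;> simp [hs, *]
    obtain ⟨c, hc⟩ := hσ (fun i => (hs i)⁻¹ * gs i * hs i) fun i => by
      rw [Units.val_mul, Units.val_mul, det_units_conj', hgs]
    refine ⟨c, ?_⟩
    set H := kroneckerPow fun i => (hs i).val
    set H' := kroneckerPow fun i => ((hs i)⁻¹).val
    set G := kroneckerPow fun i => (gs i).val
    set G' := kroneckerPow fun i => ((gs i)⁻¹).val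
    have hHH : H * H' = 1 := by rw [kroneckerPow_mul]; simp [kroneckerPow_one]
    have e1 : kroneckerPow (fun i => ((hs i)⁻¹ * gs i * hs i).val) = H' * G * H := by
      rw [kroneckerPow_mul, kroneckerPow_mul]; simp
    have e2 : kroneckerPow (fun i => (((hs i)⁻¹ * gs i * hs i)⁻¹).val) = H' * G' * H := by
      rw [kroneckerPow_mul, kroneckerPow_mul]; simp [mul_assoc]
    rw [e1, e2] at hc
    have := congrArg (fun Z => H * Z * H') hc
    simp only [Matrix.mul_smul, Matrix.smul_mul, mul_one, hHH] at this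
    rw [← this]
    simp only [mul_sub, sub_mul, ← mul_assoc, hHH, one_mul]
    simp only [mul_assoc, hHH, mul_one]
  obtain ⟨A, hA, hAu, i, a, b, hab, hAi⟩ := exists_pure_mem hm hinv (τ := τ) h hns
  obtain ⟨d, -, hd⟩ := Finset.exists_mem_notMem_of_card_lt_card
    (s := ({a, b} : Finset (Fin m))) (t := Finset.univ)
    (lt_of_le_of_lt Finset.card_le_two (by simp only [Finset.card_univ, Fintype.card_fin]; omega))
  simp only [Finset.mem_insert, Finset.mem_singleton, not_or] at hd
  obtain ⟨u, hu⟩ := exists_det_one_GL (single_det_one hd.1 (1 : F))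
  have hu' : (u⁻¹).val = 1 - single d a (1 : F) :=
    left_inv_eq_right_inv (a := u.val) (by rw [← Units.val_mul, inv_mul_cancel, Units.val_one])
      (by rw [hu, add_mul, one_mul, mul_sub, mul_one, ss0 (Ne.symm hd.1), sub_zero,
        sub_add_cancel])
  obtain ⟨c, hc⟩ := hA (Pi.mulSingle i u) fun l => by
    rcases eq_or_ne l i with rfl | h
    · rw [Pi.mulSingle_eq_same, hu, single_det_one hd.1]
    · simp [h]
  rw [emb_mem_of_family, emb, emb, kroneckerPow_mul, kroneckerPow_mul] at hc
  set A' : Fin t → Matrix (Fin m) (Fin m) F :=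
    fun l => (Pi.mulSingle i u.val : Fin t → Matrix (Fin m) (Fin m) F) l * A l
      * (Pi.mulSingle i (u⁻¹).val : Fin t → Matrix (Fin m) (Fin m) F) l
  have hA'i : A' i = single a b (1 : F) + single d b 1 := by
    simp only [A', Pi.mulSingle_eq_same, hu, hu', hAi]
    rw [add_mul, one_mul, single_mul_single_same, one_mul, mul_sub, mul_one, add_mul, ss0 (Ne.symm hd.2),
      ss0 (Ne.symm hd.2)]
    simp
  have hA'l : ∀ l, l ≠ i → A' l = A l := fun l hl => by simp [A', hl]
  -- zero diagonal
  let x₀ : Fin t → Fin m := fun _ => a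
  have h0 := congrFun (congrFun hc x₀) x₀
  have hc0 : c = 0 := by
    rw [Matrix.sub_apply, Matrix.smul_apply, one_apply_eq, smul_eq_mul, mul_one, kroneckerPow,
      kroneckerPow, Matrix.of_apply, Matrix.of_apply,
      Finset.prod_eq_zero (Finset.mem_univ i) (by simp [x₀, hAi, hab.symm]),
      Finset.prod_eq_zero (Finset.mem_univ i) (by simp [x₀, hA'i, hab.symm]), sub_zero] at h0
    exact h0.symm
  -- a nonzero entry
  have hpick : ∀ l, ∃ p q : Fin m, A l p q = 1 := fun l => by
    rcases hAu l with h | ⟨a', b', -, h⟩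
    · exact ⟨a, a, by simp [h]⟩
    · exact ⟨a', b', by simp [h]⟩
  choose p q hpq using hpick
  have h1 := congrFun (congrFun hc (update p i d)) (update q i b)
  rw [hc0, zero_smul, Matrix.zero_apply, Matrix.sub_apply, kroneckerPow, kroneckerPow,
    Matrix.of_apply, Matrix.of_apply,
    Finset.prod_eq_zero (Finset.mem_univ i) (by simp [hAi, Ne.symm hd.1])] at h1
  rw [zero_sub, neg_eq_zero, Finset.prod_eq_one fun l _ => ?_] at h1
  · exact one_ne_zero h1
  · rcases eq_or_ne l i with rfl | hl
    · simp [hA'i, Ne.symm hd.1]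
    · simp [hA'l l hl, hl, hpq]

lemma symm_pure_swap (k : Fin (s + 2)) (l : Fin (s + 1)) (z : TV F m s) (a b : Fin m → F) :
    (slot k).symm (TensorMax.pure ((slot l).symm (TensorMax.pure z b)) a)
      = (slot (k.succAbove l)).symm
          (TensorMax.pure ((slot (l.predAbove k)).symm (TensorMax.pure z a)) b) := by
  funext q
  simp only [slot_symm_apply, TensorMax.pure, vecMulVec_apply, Fin.removeNth_apply,
    Fin.succAbove_succAbove_predAbove]
  have : Fin.removeNth l (Fin.removeNth k q) = Fin.removeNth (l.predAbove k)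
      (Fin.removeNth (k.succAbove l) q) := funext fun i => by
    simp [Fin.removeNth_apply, Fin.succAbove_succAbove_succAbove_predAbove]
  rw [this]
  ring

lemma OnlyScal.factor {M : Subgroup (TV F m (s + 2) ≃ₗ[F] TV F m (s + 2))} (hm : 3 ≤ m)
    (hM : Base M) (hsc : OnlyScal M) (k : Fin (s + 2)) :
    OnlyScal (CfsgLib.WreathTensor14.factor M k) := by
  intro l τ hτ
  refine scalar_of_forall_sub_scalar hm τ fun gs hgs => ?_
  set C := kroneckerPow fun i => (gs i).val
  set C' := kroneckerPow fun i => ((gs i)⁻¹).val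
  have hCC : C' * C = 1 := by rw [kroneckerPow_mul]; simp [kroneckerPow_one]
  set τ' := τ - C * τ * C'
  set l' := k.succAbove l
  set k' := l.predAbove k
  let T : Matrix (Fin (s + 1) → Fin m) (Fin (s + 1) → Fin m) F :=
    LinearMap.toMatrix' ((slot k').symm.toLinearMap ∘ₗ mulLeftLinearMap (Fin m) F τ' ∘ₗ
      (slot k').toLinearMap)
  have hT : TensorMax.IsCoeff (slotGroup M l') T := by
    intro w ψ hw
    obtain ⟨a, ⟨g, hg, b, hgb⟩, hav⟩ := inM_slotGroup_iff.1 (hτ w ψ hw)
    -- the commutator with a product fixing the factors `k` and `l'`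
    set cs := Fin.insertNth (α := fun _ => GL (Fin m) F) l 1 gs
    have hcs : ∀ i, (cs i).val.det = 1 := fun i => by
      rcases Fin.eq_self_or_eq_succAbove l i with rfl | ⟨i', rfl⟩ <;> simp [cs, hgs]
    set G := kronE (Fin.insertNth (α := fun _ => GL (Fin m) F) k 1 cs)
    have hG : G ∈ M := hM.kron_mem _ fun i => by
      rcases Fin.eq_self_or_eq_succAbove k i with rfl | ⟨i', rfl⟩ <;> simp [hcs]
    have hGp : ∀ u v, slotConj k G (TensorMax.pure u v) = TensorMax.pure (kronE cs u) v := fun u v => by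
      rw [kronE_insertNth_left, TensorMax.pure, mul_vecMulVec]; rfl
    have hGi : ∀ u v, slotConj k G⁻¹ (TensorMax.pure u v)
        = TensorMax.pure ((kronE cs).symm u) v := fun u v => by
      apply (slotConj k G).injective
      rw [← LinearEquiv.mul_apply, ← map_mul, mul_inv_cancel, map_one, hGp,
        LinearEquiv.apply_symm_apply]
      rfl
    have hgi : ∀ u v, slotConj k g⁻¹ (TensorMax.pure u v)
        = TensorMax.pure (a.symm u) ((b⁻¹).val *ᵥ v) := fun u v => by
      apply (slotConj k g).injective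
      rw [← LinearEquiv.mul_apply, ← map_mul, mul_inv_cancel, map_one, hgb,
        LinearEquiv.apply_symm_apply, mulVec_mulVec, ← Units.val_mul, mul_inv_cancel, Units.val_one,
        one_mulVec]
      rfl
    set d := a * kronE cs * a⁻¹ * (kronE cs)⁻¹
    have hd : ∀ u v, slotConj k (g * G * g⁻¹ * G⁻¹) (TensorMax.pure u v)
        = TensorMax.pure (d u) v := fun u v => by
      rw [map_mul, map_mul, map_mul, LinearEquiv.mul_apply, LinearEquiv.mul_apply,
        LinearEquiv.mul_apply, hGi, hgi, hGp, hgb, mulVec_mulVec, ← Units.val_mul, mul_inv_cancel,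
        Units.val_one, one_mulVec]
      rfl
    set N := fun σ : Matrix (Fin s → Fin m) (Fin s → Fin m) F =>
      (slot l).symm.toLinearMap ∘ₗ rootMap σ w ψ ∘ₗ (slot l).toLinearMap with hN
    have hN2 : ∀ σ σ' y, N σ (N σ' y) = 0 := fun σ σ' y => by
      simp [hN, TensorMax.pure_mulVec, hw]
    have hsymm : ∀ y, a.symm y = y - N τ y := fun y => by
      rw [LinearEquiv.symm_apply_eq, hav, map_sub]
      change y = y - N τ y + (N τ y - N τ (N τ y))
      rw [hN2]; abel
    have hcl : ∀ Y, slot l (kronE cs ((slot l).symm Y)) = C * Y := fun Y =>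
      kronE_insertNth_left l gs Y
    have hconj : ∀ y, kronE cs (N τ ((kronE cs).symm y)) = N (C * τ * C') y := fun y => by
      apply (slot l).injective
      have hy : C * slot l ((kronE cs).symm y) = slot l y := by
        rw [← hcl, LinearEquiv.symm_apply_apply, LinearEquiv.apply_symm_apply]
      simp only [hN, LinearMap.comp_apply, LinearEquiv.coe_coe, hcl, LinearEquiv.apply_symm_apply,
        rootMap_apply, ← hy, TensorMax.pure, mul_vecMulVec, mulVec_mulVec]
      rw [Matrix.mul_assoc (C * τ) C', ← Matrix.mul_assoc C', hCC, Matrix.one_mul, Matrix.mul_assoc]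
    have hdv : ∀ y, d y = y + N τ' y := fun y => by
      change a (kronE cs (a.symm ((kronE cs).symm y))) = _
      rw [hsymm, map_sub, LinearEquiv.apply_symm_apply, hconj, hav]
      change y - N (C * τ * C') y + N τ (y - N (C * τ * C') y) = y + N τ' y
      rw [map_sub, hN2]
      simp only [hN, τ', LinearMap.comp_apply, LinearEquiv.coe_coe, rootMap_apply, sub_mulVec,
        TensorMax.pure, sub_vecMulVec, map_sub]
      abel
    refine inM_slotGroup_iff.2 ⟨g * G * g⁻¹ * G⁻¹, M.mul_mem (M.mul_mem (M.mul_mem hg hG)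
      (M.inv_mem hg)) (M.inv_mem hG), fun v => ?_⟩
    suffices h : (g * G * g⁻¹ * G⁻¹ : TV F m (s + 2) ≃ₗ[F] TV F m (s + 2)).toLinearMap
        = LinearMap.id + (slot l').symm.toLinearMap ∘ₗ rootMap T w ψ ∘ₗ (slot l').toLinearMap from
      LinearMap.congr_fun h v
    refine linearMap_ext_pv fun x => ?_
    have e1 := hd (pv (Fin.removeNth k x)) (x k)
    rw [slotConj_apply, ← slot_pv, LinearEquiv.symm_apply_apply] at e1
    have e2 : TensorMax.pure (d (pv (Fin.removeNth k x))) (x k)
        = slot k (pv x) + TensorMax.pure (N τ' (pv (Fin.removeNth k x))) (x k) := by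
      rw [hdv, slot_pv, TensorMax.pure, TensorMax.pure, TensorMax.pure, ← add_vecMulVec]
    rw [e2] at e1
    rw [LinearEquiv.coe_coe, LinearMap.add_apply, LinearMap.id_apply]
    apply (slot k).injective
    rw [e1, map_add]
    congr 1
    rw [← LinearEquiv.symm_apply_eq]
    simp only [hN, T, LinearMap.comp_apply, LinearEquiv.coe_coe, rootMap_apply, slot_pv,
      TensorMax.pure_mulVec, mulVec_smul, LinearMap.toMatrix'_mulVec, map_smul,
      mulLeftLinearMap_apply]
    simp only [TensorMax.pure, smul_vecMulVec, mul_vecMulVec, mulVec_smul, map_smul]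
    have hxl : Fin.removeNth k x l = x l' := Fin.removeNth_apply ..
    have hxk : Fin.removeNth l' x k' = x k := by
      simp [Fin.removeNth_apply, l', k', Fin.succAbove_succAbove_predAbove]
    have hr : Fin.removeNth l (Fin.removeNth k x) = Fin.removeNth k' (Fin.removeNth l' x) :=
      funext fun i => by
        simp [Fin.removeNth_apply, l', k', Fin.succAbove_succAbove_succAbove_predAbove]
    rw [hxl, hxk, hr]
    exact congrArg _ (symm_pure_swap k l _ _ _)
  obtain ⟨c, hc⟩ := hsc l' T hT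
  refine ⟨c, ?_⟩
  ext r r'
  let o : Fin m := ⟨0, by omega⟩
  have := congrFun (congrFun hc (Fin.insertNth (α := fun _ => Fin m) k' o r))
    (Fin.insertNth (α := fun _ => Fin m) k' o r')
  simp only [T, LinearMap.toMatrix'_apply, LinearMap.comp_apply, LinearEquiv.coe_coe,
    mulLeftLinearMap_apply, slot_symm_apply, Fin.removeNth_insertNth, Fin.insertNth_apply_same,
    Matrix.mul_apply, Matrix.smul_apply] at this
  have e2 : (1 : Matrix (Fin (s + 1) → Fin m) (Fin (s + 1) → Fin m) F)
      (Fin.insertNth (α := fun _ => Fin m) k' o r) (Fin.insertNth (α := fun _ => Fin m) k' o r')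
      = (1 : Matrix (Fin s → Fin m) (Fin s → Fin m) F) r r' := by
    simp only [one_apply, (Fin.insertNth_right_injective (α := fun _ => Fin m) o).eq_iff]
  rw [e2, Fintype.sum_eq_single r' fun u hu => by simp [slot_apply, hu]] at this
  rw [Matrix.smul_apply, ← this]
  simp [slot_apply]

/-- An element carrying one member to a member splits. -/
lemma exists_split (hM : Base M) (hm : 3 ≤ m) (hsc : OnlyScal M)
    {g : TV F m (s + 1) ≃ₗ[F] TV F m (s + 1)} (hg : g ∈ M) {k j : Fin (s + 1)}
    {w₀ v : Fin m → F} (hw₀ : w₀ ≠ 0) (hmap : ∀ x ∈ smemb k w₀, g x ∈ smemb j v) :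
    ∃ (a : TV F m s ≃ₗ[F] TV F m s) (b : GL (Fin m) F), ∀ u w,
      slot j (g ((slot k).symm (TensorMax.pure u w))) = TensorMax.pure (a u) (b.val *ᵥ w) := by
  have : Nonempty (Fin m) := ⟨⟨0, by omega⟩⟩
  set e := ((slot k).symm.trans g).trans (slot j)
  obtain ⟨A, B, hAB⟩ := exists_mul_mul_of_member (by simpa using hm) (hM.rightSL j) (hsc j) e
    (fun w φ hw => inM_slotGroup_iff.2 (((inV_rootV hM k hw).conj hg).congr
      (LinearMap.ext fun v => by simp [rootV, e])))
    hw₀ (fun u => hmap _ (symm_pure_mem k u w₀))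
  have hA : A.det ≠ 0 := fun ha => by
    obtain ⟨z, hz, haz⟩ := Matrix.exists_mulVec_eq_zero_iff.2 ha
    refine hz ((TensorMax.pure_eq_zero_iff hw₀).1 (e.injective ?_))
    rw [hAB, map_zero, TensorMax.pure, mul_vecMulVec, haz]
    simp
  have hB : B.det ≠ 0 := fun hb => by
    obtain ⟨z, hz, hbz⟩ := Matrix.exists_mulVec_eq_zero_iff.2 hb
    obtain ⟨u, hu⟩ := exists_ne (0 : TV F m s)
    refine hu ((TensorMax.pure_eq_zero_iff hz).1 (e.injective ?_))
    rw [hAB, map_zero, TensorMax.pure, mul_vecMulVec, vecMulVec_mul, vecMul_transpose, hbz]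
    ext p q
    simp [vecMulVec_apply]
  refine ⟨toE (Matrix.GeneralLinearGroup.mkOfDetNeZero A hA),
    Matrix.GeneralLinearGroup.mkOfDetNeZero B hB, fun u w => ?_⟩
  change e (TensorMax.pure u w) = _
  rw [hAB, TensorMax.pure, mul_vecMulVec, vecMulVec_mul, vecMul_transpose]
  rfl

lemma permE_smemb (σ : Equiv.Perm (Fin (s + 1))) (j : Fin (s + 1)) {v : Fin m → F} (hv : v ≠ 0)
    {x : TV F m (s + 1)} (hx : x ∈ smemb j v) : permE σ x ∈ smemb (σ j) v := by
  obtain ⟨u, hu⟩ := mem_memb.1 hx
  rw [mem_smemb]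
  refine TensorMax.mem_memb_of_forall_orth hv fun φ hφ => ?_
  rw [LinearEquiv.coe_coe] at hu
  rw [← (slot j).symm_apply_apply x, ← hu]
  have : TensorMax.colL φ ∘ₗ (slot (σ j)).toLinearMap ∘ₗ (permE σ).toLinearMap ∘ₗ
      (slot j).symm.toLinearMap ∘ₗ TensorMax.pureL v = 0 := by
    refine linearMap_ext_pv fun y => ?_
    simp only [LinearMap.comp_apply, LinearEquiv.coe_coe, TensorMax.pureL_apply,
      TensorMax.colL_apply, LinearMap.zero_apply]
    rw [← slot_pv_insertNth j v y, LinearEquiv.symm_apply_apply, permE_pv, slot_pv,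
      TensorMax.pure_mulVec, Equiv.Perm.coe_inv, Equiv.symm_apply_apply, Fin.insertNth_apply_same,
      hφ, zero_smul]
  exact LinearMap.congr_fun this u

/-- An element carrying one member to a member is monomial. -/
theorem mono_of_member (hM : Base M) (hm : 3 ≤ m) (hsc : OnlyScal M)
    (hIH : ∀ k, ∀ a ∈ factor M k, a ∈ monoGroup F m s)
    {g : TV F m (s + 1) ≃ₗ[F] TV F m (s + 1)} (hg : g ∈ M) {k j : Fin (s + 1)}
    {w₀ v : Fin m → F} (hw₀ : w₀ ≠ 0) (hv : v ≠ 0) (hmap : ∀ x ∈ smemb k w₀, g x ∈ smemb j v) :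
    g ∈ monoGroup F m (s + 1) := by
  by_cases hs : s = 1
  · subst hs
    obtain ⟨a, b, hab⟩ := exists_split hM hm hsc hg hw₀ hmap
    exact mono_of_split (mem_mono_one a) hab
  -- move the factor `j` to `k`
  obtain ⟨σ, hσ, hσj⟩ : ∃ σ : Equiv.Perm (Fin (s + 1)), σ ^ 3 = 1 ∧ σ j = k := by
    rcases eq_or_ne j k with rfl | hjk
    · exact ⟨1, one_pow 3, rfl⟩
    have h2 : 2 ≤ s := by
      rcases s with _ | _ | s
      · exact absurd (Subsingleton.elim (α := Fin 1) j k) hjk
      · exact absurd rfl hs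
      · omega
    obtain ⟨l, -, hl⟩ := Finset.exists_mem_notMem_of_card_lt_card
      (s := ({j, k} : Finset (Fin (s + 1)))) (t := Finset.univ)
      (lt_of_le_of_lt Finset.card_le_two (by simp only [Finset.card_univ, Fintype.card_fin]; omega))
    simp only [Finset.mem_insert, Finset.mem_singleton, not_or] at hl
    refine ⟨Equiv.swap j l * Equiv.swap j k, ?_, ?_⟩
    · rw [← (Equiv.Perm.isThreeCycle_swap_mul_swap_same (Ne.symm hl.1) hjk hl.2).orderOf]
      exact pow_orderOf_eq_one _
    · rw [Equiv.Perm.mul_apply, Equiv.swap_apply_left,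
        Equiv.swap_apply_of_ne_of_ne hjk.symm (Ne.symm hl.2)]
  have hhg := M.mul_mem (hM.perm_mem σ hσ) hg
  obtain ⟨a, b, hab⟩ := exists_split hM hm hsc hhg hw₀ (k := k) (j := k) (v := v) fun x hx => by
    rw [LinearEquiv.mul_apply, ← hσj]
    exact permE_smemb σ j hv (hmap x (by rwa [hσj] at *))
  have := mono_of_split (hIH k a ⟨_, hhg, b, hab⟩) hab
  simpa using (monoGroup F m (s + 1)).mul_mem ((monoGroup F m (s + 1)).inv_mem (permE_mem_mono σ)) this

end CfsgLib.WreathTensor14
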