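import Cfsg.Agent.WreathTensor14.SwapExcl
import Cfsg.Agent.Frobenius.Complement
import Cfsg.Agent.Frobenius.Linear

/-!
With only scalar coefficients every element is monomial.
-/

set_option autoImplicit false
set_option maxHeartbeats 800000

namespace CfsgLib.WreathTensor14

open Matrix Function Module
open CfsgLib.TensorMax (memb exists_covec exists_dual pure_mulVec mem_memb exists_ne_zero_orth_two
  eq_smul_of_forall_orth)

variable {F : Type*} [Field F] {m t s : ℕ}

lemma range_rootV (k : Fin (s + 1)) (w : Fin m → F) {ψ : Fin m → F} (hψ : ψ ≠ 0) :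
    LinearMap.range (rootV k w ψ) = smemb k w := by
  rw [rootV, LinearMap.range_comp, LinearMap.range_comp_of_range_eq_top _ (slot k).range,
    TensorMax.range_rootMap_one hψ, smemb_eq_map]

lemma rootV_eq_zero {k : Fin (s + 1)} {w w' ψ : Fin m → F} (h : w' ⬝ᵥ ψ = 0) {x : TV F m (s + 1)}
    (hx : x ∈ smemb k w') : rootV k w ψ x = 0 := by
  obtain ⟨u, hu⟩ := mem_memb.1 hx
  rw [rootV_apply, show slot k x = _ from hu.symm, pure_mulVec, h, zero_smul]
  simp

lemma rootV_comp (k : Fin (s + 1)) {w ψ ψ' : Fin m → F} (h : w ⬝ᵥ ψ = 0) (x : TV F m (s + 1)) :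
    rootV k w ψ (rootV k w ψ' x) = 0 := rootV_eq_zero h (rootV_mem_smemb k w ψ' x)

/-- Monomial maps carry members to members. -/
lemma exists_member_image {g : TV F m (s + 1) ≃ₗ[F] TV F m (s + 1)}
    (hg : g ∈ monoGroup F m (s + 1)) (j : Fin (s + 1)) {w : Fin m → F} (hw : w ≠ 0) :
    ∃ k w', w' ≠ 0 ∧ (smemb j w).map g.toLinearMap = smemb k w' := by
  obtain ⟨σ, gs, rfl⟩ := hg
  have hw' : (gs (σ j)).val *ᵥ w ≠ 0 := fun h0 => hw (by
    have := congrArg (fun v => ((gs (σ j))⁻¹).val *ᵥ v) h0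
    simpa only [mulVec_mulVec, ← Units.val_mul, inv_mul_cancel, Units.val_one, one_mulVec,
      mulVec_zero] using this)
  refine ⟨σ j, _, hw', Submodule.eq_of_le_of_finrank_le ?_ ?_⟩
  · rintro _ ⟨x, hx, rfl⟩
    obtain ⟨u, hu⟩ := mem_memb.1 (permE_smemb σ j hw hx)
    rw [LinearEquiv.coe_coe] at hu ⊢
    rw [LinearEquiv.mul_apply, ← (slot (σ j)).symm_apply_apply (permE σ x), ← hu, slot_kronE]
    exact symm_pure_mem _ _ _
  · rw [LinearEquiv.finrank_map_eq, finrank_smemb _ hw, finrank_smemb _ hw']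

/-- A linear map with a quadratic relation and no eigenvector lives in even dimension. -/
lemma even_finrank_of_quadratic {V : Type*} [AddCommGroup V] [Module F V] [FiniteDimensional F V]
    (A : V →ₗ[F] V) (p q : F) (hA : ∀ v, A (A v) = p • A v + q • v)
    (hne : ∀ v (c : F), A v = c • v → v = 0) : Even (finrank F V) := by
  suffices h : ∀ n, ∀ W : Submodule F V, (∀ v ∈ W, A v ∈ W) → finrank F V = finrank F W + n →
      Even n by
    exact h _ ⊥ (fun v hv => by rw [(Submodule.mem_bot F).1 hv, map_zero]; exact zero_mem _)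
      (by rw [finrank_bot, zero_add])
  intro n
  induction n using Nat.strong_induction_on with
  | _ n ih =>
    intro W hW hn
    rcases eq_or_ne n 0 with rfl | hn0
    · exact Even.zero
    obtain ⟨u, hu⟩ : ∃ u, u ∉ W := by
      by_contra! h
      rw [show W = ⊤ from eq_top_iff.2 fun x _ => h x, finrank_top] at hn
      omega
    let f : F × F →ₗ[F] V :=
      (LinearMap.toSpanSingleton F V u).coprod (LinearMap.toSpanSingleton F V (A u))
    have hf : ∀ ab : F × F, f ab = ab.1 • u + ab.2 • A u := fun ab => by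
      simp [f, LinearMap.toSpanSingleton_apply]
    have hind : ∀ ab : F × F, f ab ∈ W → ab = 0 := by
      rintro ⟨a, b⟩ hab
      rw [hf] at hab
      simp only at hab
      by_cases hb : b = 0
      · subst hb
        rw [zero_smul, add_zero] at hab
        by_cases ha : a = 0
        · subst ha; rfl
        · exact absurd (by simpa [smul_smul, inv_mul_cancel₀ ha] using W.smul_mem a⁻¹ hab) hu
      exfalso
      set r := -(b⁻¹ * a)
      have h1 : A u - r • u ∈ W := by
        have := W.smul_mem b⁻¹ hab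
        rw [smul_add, smul_smul, smul_smul, inv_mul_cancel₀ hb, one_smul] at this
        rwa [show A u - r • u = (b⁻¹ * a) • u + A u by simp only [r]; module]
      have h2 : (p - r) • A u + q • u ∈ W := by
        have := hW _ h1
        rw [map_sub, map_smul, hA] at this
        rwa [show (p - r) • A u + q • u = p • A u + q • u - r • A u by module]
      have h3 : ((p - r) * r + q) • u ∈ W := by
        have := W.sub_mem h2 (W.smul_mem (p - r) h1)
        rwa [show ((p - r) * r + q) • u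
          = (p - r) • A u + q • u - (p - r) • (A u - r • u) by module]
      have h4 : (p - r) * r + q = 0 := by
        by_contra h0
        exact hu (by simpa [smul_smul, inv_mul_cancel₀ h0] using W.smul_mem ((p - r) * r + q)⁻¹ h3)
      have h5 : A (A u - r • u) = (p - r) • (A u - r • u) := by
        rw [map_sub, map_smul, hA, show q = -((p - r) * r) by linear_combination h4]
        module
      have h6 := hne u r (sub_eq_zero.1 (hne _ _ h5))
      exact hu (h6 ▸ zero_mem W)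
    set W' := W ⊔ LinearMap.range f
    have hfi : Function.Injective f := (injective_iff_map_eq_zero f).2 fun ab h =>
      hind ab (h ▸ zero_mem W)
    have hdim : finrank F W' = finrank F W + 2 := by
      have h := Submodule.finrank_sup_add_finrank_inf_eq W (LinearMap.range f)
      rw [show W ⊓ LinearMap.range f = ⊥ from eq_bot_iff.2 (by
        rintro x ⟨h1, ab, rfl⟩
        rw [hind ab h1, map_zero]
        exact zero_mem _), finrank_bot, add_zero, LinearMap.finrank_range_of_inj hfi,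
        Module.finrank_prod, Module.finrank_self] at h
      exact h
    have hW' : ∀ v ∈ W', A v ∈ W' := by
      intro v hv
      obtain ⟨w, hw, _, ⟨ab, rfl⟩, rfl⟩ := Submodule.mem_sup.1 hv
      rw [map_add]
      refine W'.add_mem (Submodule.mem_sup_left (hW w hw)) (Submodule.mem_sup_right ?_)
      refine ⟨(ab.2 * q, ab.1 + ab.2 * p), ?_⟩
      rw [hf, hf, map_add, map_smul, map_smul, hA]
      module
    have hle : finrank F W' ≤ finrank F V := Submodule.finrank_le _
    obtain ⟨c, hc⟩ := ih (n - 2) (by omega) W' hW' (by omega)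
    exact ⟨c + 1, by omega⟩

variable {M : Subgroup (TV F m (s + 1) ≃ₗ[F] TV F m (s + 1))} [Finite F]

/-- If a conjugate of a root element is monomial then the conjugating element is. -/
lemma mono_of_conj (hM : Base M) (hm : 3 ≤ m) (hsc : OnlyScal M)
    (hIH : ∀ k, ∀ a ∈ factor M k, a ∈ monoGroup F m s)
    {g x : TV F m (s + 1) ≃ₗ[F] TV F m (s + 1)} (hg : g ∈ M) {j : Fin (s + 1)} {w ψ : Fin m → F}
    (hw : w ≠ 0) (hψ : ψ ≠ 0) (hwψ : w ⬝ᵥ ψ = 0) (hx : ∀ v, x v = v + rootV j w ψ v)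
    (hmono : g⁻¹ * x * g ∈ monoGroup F m (s + 1)) : g ∈ monoGroup F m (s + 1) := by
  have hnil : nil (g⁻¹ * x * g) = g.symm.toLinearMap ∘ₗ rootV j w ψ ∘ₗ g.toLinearMap :=
    LinearMap.ext fun v => by
      change g.symm (x (g v)) - v = g.symm (rootV j w ψ (g v))
      rw [hx, map_add, LinearEquiv.symm_apply_apply, add_sub_cancel_left]
  have hr : LinearMap.range (nil (g⁻¹ * x * g)) = (smemb j w).map g.symm.toLinearMap := by
    rw [hnil, LinearMap.range_comp, LinearMap.range_comp_of_range_eq_top _ g.range,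
      range_rootV _ _ hψ]
  have hrank : finrank F (LinearMap.range (nil (g⁻¹ * x * g))) = m ^ s := by
    rw [hr, LinearEquiv.finrank_map_eq, finrank_smemb _ hw]
  have hne : g⁻¹ * x * g ≠ 1 := fun h => by
    rw [h, show nil (1 : TV F m (s + 1) ≃ₗ[F] TV F m (s + 1)) = 0 from
      LinearMap.ext fun v => sub_self v, LinearMap.range_zero, finrank_bot] at hrank
    exact (pow_pos (show 0 < m by omega) s).ne hrank
  rcases mono_classify hm hmono (fun v => by
      rw [hnil]
      simp only [LinearMap.comp_apply, LinearEquiv.coe_coe, LinearEquiv.apply_symm_apply,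
        rootV_comp j hwψ, map_zero]) hne hrank.le with ⟨k, w', hw', hkw⟩ | hswap
  · have := mono_of_member hM hm hsc hIH (M.inv_mem hg) hw hw' fun z hz => by
      rw [← hkw, hr]; exact ⟨z, hz, rfl⟩
    simpa using (monoGroup F m (s + 1)).inv_mem this
  · refine absurd ?_ (not_isSwap_conj hM hm hsc hw hψ hwψ hx (M.inv_mem hg))
    rwa [inv_inv]

/-- The image of a member, when it meets a transvection-invariant part of a member. -/
lemma mono_of_singular (hM : Base M) (hm : 3 ≤ m) (hsc : OnlyScal M)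
    (hIH : ∀ k, ∀ a ∈ factor M k, a ∈ monoGroup F m s) (d : ℕ)
    (hd : ∀ g ∈ M, ∀ (k : Fin (s + 1)) (v : Fin m → F) (j : Fin (s + 1)) (w : Fin m → F),
      v ≠ 0 → w ≠ 0 →
      d < finrank F ↥((smemb k v).map (g : TV F m (s + 1) ≃ₗ[F] TV F m (s + 1)).toLinearMap
        ⊓ smemb j w) → g ∈ monoGroup F m (s + 1))
    {g : TV F m (s + 1) ≃ₗ[F] TV F m (s + 1)} (hg : g ∈ M) {k j : Fin (s + 1)} {v w ψ : Fin m → F}
    (hv : v ≠ 0) (hw : w ≠ 0)
    (hdle : d ≤ finrank F ↥((smemb k v).map g.toLinearMap ⊓ smemb j w))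
    {u : TV F m (s + 1)} (hu : u ∈ (smemb k v).map g.toLinearMap) (huw : u ∉ smemb j w)
    (hψ : ψ ≠ 0) (hwψ : w ⬝ᵥ ψ = 0) (hru : rootV j w ψ u ∈ (smemb k v).map g.toLinearMap) :
    g ∈ monoGroup F m (s + 1) := by
  obtain ⟨x, hx, hxy⟩ := inV_rootV hM j hwψ
  refine mono_of_conj hM hm hsc hIH hg hw hψ hwψ hxy ?_
  refine hd _ (M.mul_mem (M.mul_mem (M.inv_mem hg) hx) hg) k v k v hv hv (hdle.trans_lt ?_)
  set S' := (smemb k v).map g.toLinearMap
  rw [← LinearEquiv.finrank_map_eq g.symm (S' ⊓ smemb j w)]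
  refine Submodule.finrank_lt_finrank_of_lt (SetLike.lt_iff_le_and_exists.2 ⟨?_, ?_⟩)
  · rintro _ ⟨z, ⟨⟨z', hz', rfl⟩, hzw⟩, rfl⟩
    refine ⟨⟨z', hz', ?_⟩, by simpa using hz'⟩
    rw [LinearEquiv.coe_coe] at hzw
    change g.symm (x (g z')) = g.symm (g z')
    rw [hxy, rootV_eq_zero hwψ hzw, add_zero]
  · obtain ⟨u', hu', rfl⟩ := hu
    rw [LinearEquiv.coe_coe] at huw hru
    refine ⟨g.symm (x (g u')), ⟨⟨u', hu', rfl⟩, ?_⟩, ?_⟩
    · obtain ⟨z, hz, hzu⟩ : x (g u') ∈ S' := by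
        rw [hxy]; exact S'.add_mem ⟨u', hu', rfl⟩ hru
      rw [← hzu]
      simpa using hz
    · rintro ⟨z, ⟨-, hzw⟩, hz⟩
      rw [LinearEquiv.coe_coe, g.symm.injective.eq_iff] at hz
      subst hz
      refine huw ?_
      rw [hxy] at hzw
      exact ((smemb j w).add_mem_iff_left (rootV_mem_smemb _ _ _ _)).1 hzw

/-- An element fixing a member and moving vectors inside `S' + memb w` only. -/
lemma exists_covector_of_stab (hM : Base M) (hm : 3 ≤ m) (hsc : OnlyScal M)
    {V0 : Submodule F (TV F m (s + 1))} {j : Fin (s + 1)} {w : Fin m → F} (hw : w ≠ 0)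
    (hrule : ∀ Q ∈ V0, ∀ ψ₀ : Fin m → F, ψ₀ ≠ 0 → w ⬝ᵥ ψ₀ = 0 → slot j Q *ᵥ ψ₀ = 0 →
      ∀ ψ, w ⬝ᵥ ψ = 0 → slot j Q *ᵥ ψ = 0)
    {h : TV F m (s + 1) ≃ₗ[F] TV F m (s + 1)} (hh : h ∈ M) (hV : ∀ z, h z - z ∈ V0)
    (hst : ∀ z ∈ smemb j w, h z ∈ smemb j w) : ∃ φ, ∀ z, h z = z + rootV j w φ z := by
  obtain ⟨A, B, hAB⟩ := exists_split hM hm hsc hh hw hst
  set Bm := B.val
  have hQ : ∀ u z ψ, slot j (h ((slot j).symm (TensorMax.pure u z))
      - (slot j).symm (TensorMax.pure u z)) *ᵥ ψ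
      = ((Bm *ᵥ z) ⬝ᵥ ψ) • A u - (z ⬝ᵥ ψ) • u := fun u z ψ => by
    rw [map_sub, hAB, LinearEquiv.apply_symm_apply, sub_mulVec, pure_mulVec, pure_mulVec]
  have hr : ∀ u z ψ₀, ψ₀ ≠ 0 → w ⬝ᵥ ψ₀ = 0 → ((Bm *ᵥ z) ⬝ᵥ ψ₀) • A u - (z ⬝ᵥ ψ₀) • u = 0 →
      ∀ ψ, w ⬝ᵥ ψ = 0 → ((Bm *ᵥ z) ⬝ᵥ ψ) • A u - (z ⬝ᵥ ψ) • u = 0 := by
    intro u z ψ₀ h0 h1 h2 ψ hψ
    rw [← hQ] at h2 ⊢
    exact hrule _ (hV _) ψ₀ h0 h1 h2 ψ hψ
  have hBw : ∀ ψ, w ⬝ᵥ ψ = 0 → (Bm *ᵥ w) ⬝ᵥ ψ = 0 := by
    intro ψ hψ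
    have : Nonempty (Fin m) := ⟨⟨0, by omega⟩⟩
    obtain ⟨u, hu⟩ := exists_ne (0 : TV F m s)
    obtain ⟨y, hy⟩ := mem_memb.1 (hst _ (symm_pure_mem j u w))
    rw [LinearEquiv.coe_coe, hAB] at hy
    have := congrArg (fun Z => Z *ᵥ ψ) hy
    simp only [pure_mulVec, hψ, zero_smul] at this
    exact (smul_eq_zero.1 this.symm).resolve_right fun h0 => hu ((LinearEquiv.map_eq_zero_iff A).1 h0)
  obtain ⟨η, hη⟩ := exists_dual hw
  obtain ⟨ψ₁, hψ₁, hwψ₁, -⟩ := exists_ne_zero_orth_two (by simpa using hm) w w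
  obtain ⟨z₁, hz₁⟩ := exists_dual hψ₁
  rw [dotProduct_comm] at hz₁
  -- an eigenvector
  obtain ⟨u₀, hu₀, κ, hκ⟩ : ∃ u₀, u₀ ≠ 0 ∧ ∃ κ : F, A u₀ = κ • u₀ := by
    by_contra! hne
    have hkill : ∀ z ψ₀, ψ₀ ≠ 0 → w ⬝ᵥ ψ₀ = 0 → z ⬝ᵥ ψ₀ = 0 → (Bm *ᵥ z) ⬝ᵥ ψ₀ = 0 →
        ∀ ψ, w ⬝ᵥ ψ = 0 → z ⬝ᵥ ψ = 0 := by
      intro z ψ₀ h0 h1 h2 h3 ψ hψ
      by_contra hz
      have : Nonempty (Fin m) := ⟨⟨0, by omega⟩⟩
      obtain ⟨u, hu⟩ := exists_ne (0 : TV F m s)
      have := hr u z ψ₀ h0 h1 (by rw [h2, h3]; simp) ψ hψ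
      rw [sub_eq_zero] at this
      rcases eq_or_ne ((Bm *ᵥ z) ⬝ᵥ ψ) 0 with hb | hb
      · rw [hb, zero_smul] at this
        exact hu ((smul_eq_zero.1 this.symm).resolve_left hz)
      · exact hne u hu (((Bm *ᵥ z) ⬝ᵥ ψ)⁻¹ * (z ⬝ᵥ ψ)) (by
          rw [mul_smul, ← this, inv_smul_smul₀ hb])
    by_cases hm4 : 4 ≤ m
    · obtain ⟨y, hy⟩ : ∃ y, y ∉ Submodule.span F ({w, z₁, Bm *ᵥ z₁} : Set (Fin m → F)) := by
        classical
        by_contra! hc
        have h1 := finrank_span_finset_le_card (R := F) (M := Fin m → F) {w, z₁, Bm *ᵥ z₁}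
        rw [Finset.coe_insert, Finset.coe_pair, Set.finrank,
          show Submodule.span F ({w, z₁, Bm *ᵥ z₁} : Set (Fin m → F)) = ⊤ from
            eq_top_iff.2 fun x _ => hc x, finrank_top, finrank_pi, Fintype.card_fin] at h1
        have := h1.trans Finset.card_le_three
        omega
      obtain ⟨χ, hχ, hχ'⟩ := exists_covec hy
      refine one_ne_zero (α := F) ?_
      rw [← hz₁]
      refine hkill z₁ χ (fun h0 => by simp [h0] at hχ) ?_ ?_ ?_ ψ₁ hwψ₁ <;>
        rw [dotProduct_comm] <;> exact hχ' _ (Submodule.subset_span (by simp))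
    have hm3 : m = 3 := by omega
    set ψ₂ := ψ₁ ᵥ* Bm
    have hB1 : ∀ z, (Bm *ᵥ z) ⬝ᵥ ψ₁ = z ⬝ᵥ ψ₂ := fun z => by
      rw [dotProduct_comm, dotProduct_mulVec, dotProduct_comm]
    have hwψ₂ : w ⬝ᵥ ψ₂ = 0 := by rw [← hB1]; exact hBw ψ₁ hwψ₁
    have hind : ψ₂ ∉ Submodule.span F ({ψ₁} : Set (Fin m → F)) := by
      intro hmem
      obtain ⟨c, hc⟩ := Submodule.mem_span_singleton.1 hmem
      obtain ⟨y, hy, hy1, hy2⟩ : ∃ y : Fin m → F, y ≠ 0 ∧ ψ₁ ⬝ᵥ y = 0 ∧ η ⬝ᵥ y = 0 :=
        exists_ne_zero_orth_two (by simpa using hm) ψ₁ η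
      rw [dotProduct_comm] at hy1 hy2
      refine hy ?_
      have hall := hkill y ψ₁ hψ₁ hwψ₁ hy1 (by rw [hB1, ← hc, dotProduct_smul, hy1, smul_zero])
      rw [eq_smul_of_forall_orth hη hall, hy2, zero_smul]
    have hind' : ψ₁ ∉ Submodule.span F ({ψ₂} : Set (Fin m → F)) := by
      intro hmem
      obtain ⟨c, hc⟩ := Submodule.mem_span_singleton.1 hmem
      rcases eq_or_ne c 0 with rfl | hc0
      · exact hψ₁ (by rw [← hc, zero_smul])
      · exact hind (Submodule.mem_span_singleton.2 ⟨c⁻¹, by rw [← hc, inv_smul_smul₀ hc0]⟩)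
    obtain ⟨y₀, h00, h01'⟩ := exists_covec hind'
    obtain ⟨y₁, h11, h10'⟩ := exists_covec hind
    have h01 := h01' _ (Submodule.mem_span_singleton_self ψ₂)
    have h10 := h10' _ (Submodule.mem_span_singleton_self ψ₁)
    set γ := (Bm *ᵥ y₀) ⬝ᵥ ψ₂
    set α := (Bm *ᵥ y₁) ⬝ᵥ ψ₂
    have hquad : ∀ u, γ • A (A u) + α • A u = u := by
      intro u
      set T := fun u z => h ((slot j).symm (TensorMax.pure u z)) - (slot j).symm (TensorMax.pure u z)
      have := hrule (T (A u) y₀ + T u y₁) (V0.add_mem (hV _) (hV _)) ψ₁ hψ₁ hwψ₁ (by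
        simp only [T, map_add, add_mulVec, hQ, hB1, h00, h01, h10, h11]
        simp) ψ₂ hwψ₂
      simp only [T, map_add, add_mulVec, hQ, h01, h11, zero_smul, sub_zero, one_smul] at this
      rw [← sub_eq_zero, ← this]
      abel
    have hγ : γ ≠ 0 := fun h0 => by
      have : Nonempty (Fin m) := ⟨⟨0, by omega⟩⟩
      obtain ⟨u, hu⟩ := exists_ne (0 : TV F m s)
      have := hquad u
      rw [h0, zero_smul, zero_add] at this
      rcases eq_or_ne α 0 with ha | ha
      · rw [ha, zero_smul] at this; exact hu this.symm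
      · exact hne u hu α⁻¹ (by conv_rhs => rw [← this]; rw [inv_smul_smul₀ ha])
    have := even_finrank_of_quadratic A.toLinearMap (-(γ⁻¹ * α)) γ⁻¹ (fun v => by
      rw [LinearEquiv.coe_coe]
      have h' := congrArg (fun z => γ⁻¹ • z) (hquad v)
      simp only [smul_add, inv_smul_smul₀ hγ, smul_smul] at h'
      rw [← h', neg_smul]
      abel) (fun v c hv => by
      by_contra h0
      exact hne v h0 c hv)
    rw [finrank_pi, Fintype.card_fun, Fintype.card_fin, Fintype.card_fin, hm3, Nat.even_pow] at this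
    exact absurd this.1 (by decide)
  have hκ0 : κ ≠ 0 := fun h0 => hu₀ (A.injective (by rw [hκ, h0, zero_smul, map_zero]))
  -- the second factor is a root
  have hfun : ∀ z ψ, w ⬝ᵥ ψ = 0 → (κ • (Bm *ᵥ z) - z) ⬝ᵥ ψ = 0 := by
    intro z ψ hψ
    obtain ⟨ψ₀, h0, h1, h2⟩ :=
      exists_ne_zero_orth_two (by simpa using hm) w (κ • (Bm *ᵥ z) - z)
    have heq : ∀ φ, ((Bm *ᵥ z) ⬝ᵥ φ) • A u₀ - (z ⬝ᵥ φ) • u₀
        = ((κ • (Bm *ᵥ z) - z) ⬝ᵥ φ) • u₀ := fun φ => by
      rw [hκ, smul_smul, ← sub_smul, sub_dotProduct, smul_dotProduct, smul_eq_mul, mul_comm κ]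
    have := hr u₀ z ψ₀ h0 h1 (by rw [heq, h2, zero_smul]) ψ hψ
    rw [heq] at this
    exact (smul_eq_zero.1 this).resolve_right hu₀
  -- the first factor is scalar
  have hA : ∀ u, A u = κ • u := by
    intro u
    obtain ⟨ψ₀, h0, h1, h2⟩ := exists_ne_zero_orth_two (by simpa using hm) w z₁
    have e1 : ∀ φ, w ⬝ᵥ φ = 0 → (Bm *ᵥ z₁) ⬝ᵥ φ = κ⁻¹ * (z₁ ⬝ᵥ φ) := fun φ hφ => by
      have := hfun z₁ φ hφ
      rw [sub_dotProduct, smul_dotProduct, smul_eq_mul, sub_eq_zero] at this
      rw [← this, inv_mul_cancel_left₀ hκ0]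
    have := hr u z₁ ψ₀ h0 h1 (by rw [e1 _ h1, h2]; simp) ψ₁ hwψ₁
    rw [e1 _ hwψ₁, hz₁, mul_one, one_smul, sub_eq_zero] at this
    conv_rhs => rw [← this]
    rw [smul_inv_smul₀ hκ0]
  set φ : Fin m → F := κ • (η ᵥ* Bm) - η
  have hpure : ∀ z, κ • (Bm *ᵥ z) = z + (z ⬝ᵥ φ) • w := by
    intro z
    have := eq_smul_of_forall_orth hη (b := κ • (Bm *ᵥ z) - z) (hfun z)
    rw [sub_eq_iff_eq_add'] at this
    rw [this]
    congr 2
    rw [sub_dotProduct, smul_dotProduct, dotProduct_sub, dotProduct_smul, dotProduct_comm z η,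
      dotProduct_comm z (η ᵥ* Bm), ← dotProduct_mulVec, dotProduct_comm η (Bm *ᵥ z)]
  refine ⟨φ, fun z => ?_⟩
  suffices h' : h.toLinearMap = LinearMap.id + rootV j w φ from LinearMap.congr_fun h' z
  refine linearMap_ext_pv fun x => (slot j).injective ?_
  rw [LinearEquiv.coe_coe, LinearMap.add_apply, LinearMap.id_apply, map_add, rootV_apply,
    LinearEquiv.apply_symm_apply, ← (slot j).symm_apply_apply (pv x), slot_pv, hAB,
    LinearEquiv.apply_symm_apply, pure_mulVec, hA, TensorMax.pure, TensorMax.pure, TensorMax.pure,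
    smul_vecMulVec, smul_vecMulVec, ← vecMulVec_smul, ← vecMulVec_smul, ← vecMulVec_add, hpure]

/-- With only scalar coefficients all elements are monomial. -/
theorem mono_step (hM : Base M) (hm : 3 ≤ m) (hsc : OnlyScal M)
    (hIH : ∀ k, ∀ a ∈ factor M k, a ∈ monoGroup F m s)
    {g : TV F m (s + 1) ≃ₗ[F] TV F m (s + 1)} (hg : g ∈ M) : g ∈ monoGroup F m (s + 1) := by
  classical
  let Im (g : TV F m (s + 1) ≃ₗ[F] TV F m (s + 1)) (k : Fin (s + 1)) (v : Fin m → F) :=
    (smemb k v).map g.toLinearMap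
  suffices key : ∀ n, ∀ g ∈ M, ∀ (k : Fin (s + 1)) (v : Fin m → F) (j : Fin (s + 1))
      (w : Fin m → F), v ≠ 0 → w ≠ 0 → m ^ s ≤ finrank F ↥(Im g k v ⊓ smemb j w) + n →
      g ∈ monoGroup F m (s + 1) by
    have hne : (Pi.single (⟨0, by omega⟩ : Fin m) (1 : F) : Fin m → F) ≠ 0 := by simp
    exact key _ g hg 0 _ 0 _ hne hne (Nat.le_add_left _ _)
  intro n
  induction n with
  | zero =>
    intro g hg k v j w hv hw hd
    refine mono_of_member hM hm hsc hIH hg (k := k) (j := j) hv hw fun x hx => ?_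
    have h1 : Im g k v ⊓ smemb j w = Im g k v := Submodule.eq_of_le_of_finrank_le inf_le_left (by
      rw [LinearEquiv.finrank_map_eq, finrank_smemb _ hv]; simpa using hd)
    exact (inf_eq_left.1 h1) ⟨x, hx, rfl⟩
  | succ n ih =>
    intro g hg k v j w hv hw hd
    by_contra hng
    set S := Im g k v with hS
    set d := finrank F ↥(S ⊓ smemb j w)
    have hd' : ∀ g' ∈ M, ∀ (k' : Fin (s + 1)) (v' : Fin m → F) (j' : Fin (s + 1)) (w' : Fin m → F),
        v' ≠ 0 → w' ≠ 0 → d < finrank F ↥(Im g' k' v' ⊓ smemb j' w') →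
        g' ∈ monoGroup F m (s + 1) := fun g' hg' k' v' j' w' hv' hw' hlt =>
      ih g' hg' k' v' j' w' hv' hw' (by omega)
    have hns : ∀ u ∈ S, u ∉ smemb j w → ∀ ψ, ψ ≠ 0 → w ⬝ᵥ ψ = 0 → rootV j w ψ u ∉ S :=
      fun u hu huw ψ hψ hwψ hru => hng
        (mono_of_singular hM hm hsc hIH d hd' hg hv hw le_rfl hu huw hψ hwψ hru)
    set V0 := S ⊔ smemb j w
    have hrule : ∀ Q ∈ V0, ∀ ψ₀ : Fin m → F, ψ₀ ≠ 0 → w ⬝ᵥ ψ₀ = 0 → slot j Q *ᵥ ψ₀ = 0 →
        ∀ ψ, w ⬝ᵥ ψ = 0 → slot j Q *ᵥ ψ = 0 := by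
      intro Q hQ ψ₀ h0 h1 h2 ψ hψ
      obtain ⟨a, ha, b, hb, rfl⟩ := Submodule.mem_sup.1 hQ
      have hb0 : ∀ φ, w ⬝ᵥ φ = 0 → slot j b *ᵥ φ = 0 := fun φ hφ => by
        obtain ⟨y, hy⟩ := mem_memb.1 hb
        rw [show slot j b = _ from hy.symm, pure_mulVec, hφ, zero_smul]
      rw [map_add, add_mulVec, hb0 _ h1, add_zero] at h2
      rw [map_add, add_mulVec, hb0 _ hψ, add_zero]
      by_cases haw : a ∈ smemb j w
      · obtain ⟨y, hy⟩ := mem_memb.1 haw
        rw [show slot j a = _ from hy.symm, pure_mulVec, hψ, zero_smul]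
      · refine absurd ?_ (hns a ha haw ψ₀ h0 h1)
        rw [rootV_apply, h2]
        simp
    -- the group generated by the two root groups
    let P : Subgroup (TV F m (s + 1) ≃ₗ[F] TV F m (s + 1)) :=
      { carrier := {h | h ∈ M ∧ (∀ z, h z - z ∈ V0) ∧ ∀ z ∈ S ⊓ smemb j w, h z = z}
        one_mem' := ⟨M.one_mem, fun z => by simp, fun z _ => rfl⟩
        mul_mem' := fun {h h'} hh hh' => ⟨M.mul_mem hh.1 hh'.1, fun z => by
            rw [LinearEquiv.mul_apply, ← sub_add_sub_cancel _ (h' z)]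
            exact V0.add_mem (hh.2.1 _) (hh'.2.1 z),
          fun z hz => by rw [LinearEquiv.mul_apply, hh'.2.2 z hz, hh.2.2 z hz]⟩
        inv_mem' := fun {h} hh => ⟨M.inv_mem hh.1, fun z => by
            have := V0.neg_mem (hh.2.1 (h.symm z))
            rwa [LinearEquiv.apply_symm_apply, neg_sub] at this,
          fun z hz => (LinearEquiv.symm_apply_eq h).2 (hh.2.2 z hz).symm⟩ }
    set G2 := Subgroup.closure
      ({e : TV F m (s + 1) ≃ₗ[F] TV F m (s + 1) |
          ∃ ψ, w ⬝ᵥ ψ = 0 ∧ ∀ z, e z = z + rootV j w ψ z} ∪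
        {e | ∃ ψ, v ⬝ᵥ ψ = 0 ∧ ∀ z, e z = z + g (rootV k v ψ (g.symm z))})
    have hinj : ∀ {e e' : TV F m (s + 1) ≃ₗ[F] TV F m (s + 1)}, e' ∈ M →
        (∀ z, e z = e' z) → e ∈ M := fun he' h => (LinearEquiv.ext h) ▸ he'
    have hG2 : G2 ≤ P := by
      rw [Subgroup.closure_le]
      rintro e (⟨ψ, hψ, he⟩ | ⟨ψ, hψ, he⟩)
      · obtain ⟨x, hx, hxy⟩ := inV_rootV hM j hψ
        refine ⟨hinj hx fun z => (he z).trans (hxy z).symm, fun z => ?_, fun z hz => ?_⟩
        · rw [he, add_sub_cancel_left]; exact Submodule.mem_sup_right (rootV_mem_smemb _ _ _ _)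
        · rw [he, rootV_eq_zero hψ hz.2, add_zero]
      · obtain ⟨x, hx, hxy⟩ := inV_rootV hM k hψ
        refine ⟨hinj (M.mul_mem (M.mul_mem hg hx) (M.inv_mem hg)) fun z => ?_, fun z => ?_,
          fun z hz => ?_⟩
        · change e z = g (x (g.symm z))
          rw [he, hxy, map_add, LinearEquiv.apply_symm_apply]
        · rw [he, add_sub_cancel_left]
          exact Submodule.mem_sup_left ⟨_, rootV_mem_smemb _ _ _ _, rfl⟩
        · obtain ⟨z', hz', rfl⟩ := hz.1
          rw [he, LinearEquiv.coe_coe, LinearEquiv.symm_apply_apply, rootV_eq_zero hψ hz', map_zero,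
            add_zero]
    let Kst : Subgroup G2 :=
      { carrier := {h | (smemb j w).map (h : TV F m (s + 1) ≃ₗ[F] TV F m (s + 1)).toLinearMap
          = smemb j w}
        one_mem' := Submodule.map_id _
        mul_mem' := fun {a b} ha hb => by
          change (smemb j w).map ((a : TV F m (s + 1) ≃ₗ[F] TV F m (s + 1)).toLinearMap ∘ₗ
            (b : TV F m (s + 1) ≃ₗ[F] TV F m (s + 1)).toLinearMap) = _
          rw [Submodule.map_comp, show _ = _ from hb]
          exact ha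
        inv_mem' := fun {a} ha => by
          change (smemb j w).map (a : TV F m (s + 1) ≃ₗ[F] TV F m (s + 1)).symm.toLinearMap = _
          conv_lhs => rw [← show _ = _ from ha]
          rw [← Submodule.map_comp, show (a : TV F m (s + 1) ≃ₗ[F] TV F m (s + 1)).symm.toLinearMap ∘ₗ
            (a : TV F m (s + 1) ≃ₗ[F] TV F m (s + 1)).toLinearMap = LinearMap.id from
            LinearMap.ext fun z => LinearEquiv.symm_apply_apply _ z, Submodule.map_id] }
    have hpure : ∀ u z, u ≠ 0 → (slot j).symm (TensorMax.pure u z) ∈ V0 →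
        z ∈ Submodule.span F ({w} : Set (Fin m → F)) := by
      intro u z hu hz
      obtain ⟨η, hη⟩ := exists_dual hw
      obtain ⟨ψ₀, h0, h1, h2⟩ := exists_ne_zero_orth_two (by simpa using hm) w z
      refine Submodule.mem_span_singleton.2 ⟨z ⬝ᵥ η, (eq_smul_of_forall_orth hη fun ψ hψ => ?_).symm⟩
      have := hrule _ hz ψ₀ h0 h1
        (by rw [LinearEquiv.apply_symm_apply, pure_mulVec, h2, zero_smul]) ψ hψ
      rw [LinearEquiv.apply_symm_apply, pure_mulVec] at this
      exact (smul_eq_zero.1 this).resolve_right hu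
    -- a trivial intersection subgroup
    have hTI : ∀ h : G2, h ∈ Kst → ∀ a : G2, a ∉ Kst → a⁻¹ * h * a ∈ Kst → h = 1 := by
      intro h hh a ha hha
      obtain ⟨φ, hφ⟩ := exists_covector_of_stab hM hm hsc hw hrule (hG2 h.2).1 (hG2 h.2).2.1
        (fun z hz => hh.le ⟨z, hz, rfl⟩)
      by_contra hne
      have hφ0 : φ ≠ 0 := fun h0 => hne (Subtype.ext (LinearEquiv.ext fun z => by
        rw [hφ, h0, rootV_apply, mulVec_zero]; simp))
      set P1 := Im a.1 j w
      have hP1 : P1 ≠ smemb j w := ha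
      have hfixP : ∀ z ∈ P1, h.1 z ∈ P1 := by
        rintro _ ⟨z, hz, rfl⟩
        refine ⟨(a⁻¹ * h * a : G2).1 z, hha.le ⟨z, hz, rfl⟩, ?_⟩
        simp only [Subgroup.coe_mul, Subgroup.coe_inv, LinearEquiv.coe_coe, LinearEquiv.mul_apply]
        exact LinearEquiv.apply_symm_apply _ _
      have hP1V : P1 ≤ V0 := by
        rintro _ ⟨z, hz, rfl⟩
        rw [LinearEquiv.coe_coe, ← sub_add_cancel ((a : TV F m (s + 1) ≃ₗ[F] _) z) z]
        exact V0.add_mem ((hG2 a.2).2.1 z) (Submodule.mem_sup_right hz)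
      have hI : S ⊓ smemb j w ≤ P1 ⊓ smemb j w := fun z hz =>
        ⟨⟨z, hz.2, (hG2 a.2).2.2 z hz⟩, hz.2⟩
      have hda : d ≤ finrank F ↥(P1 ⊓ smemb j w) := Submodule.finrank_mono hI
      have hP1dim : finrank F P1 = m ^ s := by
        rw [LinearEquiv.finrank_map_eq, finrank_smemb _ hw]
      have hna : (a : TV F m (s + 1) ≃ₗ[F] TV F m (s + 1)) ∉ monoGroup F m (s + 1) := by
        intro hamono
        obtain ⟨k', w', hw', hkw⟩ := exists_member_image hamono j hw
        have hkw' : P1 = smemb k' w' := hkw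
        rcases eq_or_ne k' j with rfl | hkj
        · have : Nonempty (Fin m) := ⟨⟨0, by omega⟩⟩
          obtain ⟨u, hu⟩ := exists_ne (0 : TV F m s)
          obtain ⟨c, rfl⟩ := Submodule.mem_span_singleton.1
            (hpure u w' hu (hP1V (hkw' ▸ symm_pure_mem k' u w')))
          refine hP1 (Submodule.eq_of_le_of_finrank_le ?_ (by rw [hP1dim, finrank_smemb _ hw]))
          rw [hkw']
          intro z hz
          obtain ⟨y, hy⟩ := mem_memb.1 hz
          refine mem_smemb.2 (mem_memb.2 ⟨c • y, ?_⟩)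
          rw [show slot k' z = _ from hy.symm, TensorMax.pure, TensorMax.pure, smul_vecMulVec,
            vecMulVec_smul]
        · obtain ⟨z, hz⟩ : ∃ z, z ∉ Submodule.span F ({w} : Set (Fin m → F)) := by
            by_contra! hc
            have h1 : finrank F (⊤ : Submodule F (Fin m → F)) ≤ 1 :=
              (Submodule.finrank_mono fun x _ => hc x).trans (finrank_span_singleton hw).le
            rw [finrank_top, finrank_pi, Fintype.card_fin] at h1
            omega
          have hz0 : z ≠ 0 := fun h0 => hz (h0 ▸ zero_mem _)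
          set x : Fin (s + 1) → Fin m → F := update (fun _ => w') j z
          have hx : ∀ i, x i ≠ 0 := fun i => by
            rcases eq_or_ne i j with rfl | h <;> simp [x, *]
          refine hz (hpure (pv (Fin.removeNth j x)) z (pv_ne_zero fun i => hx _) ?_)
          rw [show z = x j by simp [x], ← slot_pv, LinearEquiv.symm_apply_apply]
          refine hP1V ?_
          rw [hkw', mem_smemb, slot_pv, show x k' = w' by simp [x, hkj]]
          exact TensorMax.pure_mem_memb _ _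
      have hnsP : ∀ u ∈ P1, u ∉ smemb j w → ∀ ψ, ψ ≠ 0 → w ⬝ᵥ ψ = 0 → rootV j w ψ u ∉ P1 :=
        fun u hu huw ψ hψ hwψ hru => hna (mono_of_singular hM hm hsc hIH d hd' (hG2 a.2).1 hw hw
          hda hu huw hψ hwψ hru)
      obtain ⟨u, hu, huw⟩ : ∃ u ∈ P1, u ∉ smemb j w := SetLike.not_le_iff_exists.1 fun hle =>
        hP1 (Submodule.eq_of_le_of_finrank_le hle (by rw [hP1dim, finrank_smemb _ hw]))
      have hru : rootV j w φ u ∈ P1 := by
        have := P1.sub_mem (hfixP u hu) hu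
        rwa [hφ, add_sub_cancel_left] at this
      by_cases hβ : w ⬝ᵥ φ = 0
      · exact hnsP u hu huw φ hφ0 hβ hru
      -- here the intersection is trivial
      have hd0 : d = 0 := by
        have : S ⊓ smemb j w = ⊥ := by
          rw [eq_bot_iff]
          intro z hz
          have hfix := (hG2 h.2).2.2 z hz
          rw [hφ, add_eq_left, rootV_apply] at hfix
          obtain ⟨y, hy⟩ := mem_memb.1 hz.2
          rw [show slot j z = _ from hy.symm, pure_mulVec, LinearEquiv.map_eq_zero_iff,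
            TensorMax.pure_eq_zero_iff hw, smul_eq_zero] at hfix
          rw [Submodule.mem_bot, ← (slot j).map_eq_zero_iff, show slot j z = _ from hy.symm,
            hfix.resolve_left hβ]
          simp
        exact Submodule.finrank_eq_zero.2 this
      set q := u - (w ⬝ᵥ φ)⁻¹ • rootV j w φ u
      have hqP : q ∈ P1 := P1.sub_mem hu (P1.smul_mem _ hru)
      have hqw : q ∉ smemb j w := fun hm' => huw
        (((smemb j w).sub_mem_iff_left ((smemb j w).smul_mem _ (rootV_mem_smemb _ _ _ _))).1 hm')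
      have hqφ : slot j q *ᵥ φ = 0 := by
        simp only [q, map_sub, map_smul, rootV_apply, LinearEquiv.apply_symm_apply, sub_mulVec,
          smul_mulVec, pure_mulVec, inv_smul_smul₀ hβ, sub_self]
      have hall : ∀ w', w' ≠ 0 → w' ⬝ᵥ φ = 0 → q ∈ smemb j w' := by
        intro w' hw' hwφ'
        by_contra hq'
        refine hna (mono_of_singular hM hm hsc hIH 0 (fun g' hg' k' v' j' w'' hv' hw'' hlt =>
          hd' g' hg' k' v' j' w'' hv' hw'' (by rw [hd0]; exact hlt)) (hG2 a.2).1 hw hw'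
          (Nat.zero_le _) hqP hq' hφ0 hwφ' ?_)
        rw [rootV_apply, hqφ]
        simp
      obtain ⟨w₁, hw₁, hw₁φ, -⟩ := exists_ne_zero_orth_two (by simpa using hm) φ φ
      obtain ⟨η, hη⟩ := exists_dual hw₁
      obtain ⟨w₂, hw₂, hw₂φ, hw₂η⟩ := exists_ne_zero_orth_two (by simpa using hm) φ η
      rw [dotProduct_comm] at hw₁φ hw₂φ hw₂η
      have hind : w₂ ∉ Submodule.span F ({w₁} : Set (Fin m → F)) := by
        intro hm'
        obtain ⟨c, hc⟩ := Submodule.mem_span_singleton.1 hm'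
        rw [← hc, smul_dotProduct, hη, smul_eq_mul, mul_one] at hw₂η
        exact hw₂ (by rw [← hc, hw₂η, zero_smul])
      have h1 := (inf_memb_eq_bot (ι := Fin s → Fin m) hind).le
        ⟨hall w₂ hw₂ hw₂φ, hall w₁ hw₁ hw₁φ⟩
      rw [Submodule.mem_bot, LinearEquiv.coe_coe, LinearEquiv.map_eq_zero_iff] at h1
      exact hqw (h1 ▸ zero_mem _)
    -- the root group
    let W : Submodule F (Fin m → F) :=
      { carrier := {ψ | w ⬝ᵥ ψ = 0}
        add_mem' := fun ha hb => by simp_all [dotProduct_add]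
        zero_mem' := by simp
        smul_mem' := fun c a ha => by simp_all [dotProduct_smul] }
    let R : W → (TV F m (s + 1) ≃ₗ[F] TV F m (s + 1)) := fun ψ =>
      LinearEquiv.ofLinearMap (LinearMap.id + rootV j w ψ.1) (LinearMap.id - rootV j w ψ.1)
        (LinearMap.ext fun z => by simp [rootV_comp j ψ.2])
        (LinearMap.ext fun z => by simp [rootV_comp j ψ.2])
    have hR : ∀ ψ z, R ψ z = z + rootV j w ψ.1 z := fun ψ z => rfl
    have hRG : ∀ ψ, R ψ ∈ G2 := fun ψ => Subgroup.subset_closure (Or.inl ⟨ψ.1, ψ.2, hR ψ⟩)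
    have hRK : ∀ ψ, (⟨R ψ, hRG ψ⟩ : G2) ∈ Kst := fun ψ => by
      refine Submodule.eq_of_le_of_finrank_le ?_ (by rw [LinearEquiv.finrank_map_eq])
      rintro _ ⟨z, hz, rfl⟩
      rw [LinearEquiv.coe_coe, hR]
      exact (smemb j w).add_mem hz (rootV_mem_smemb _ _ _ _)
    let ρ : Multiplicative W →* Kst :=
      MonoidHom.mk' (fun ψ => ⟨⟨R ψ.toAdd, hRG _⟩, hRK _⟩) fun a b =>
        Subtype.ext (Subtype.ext (LinearEquiv.ext fun z => by
          simp only [Subgroup.coe_mul, LinearEquiv.mul_apply, hR, toAdd_mul, Submodule.coe_add,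
            map_add, rootV_comp j a.toAdd.2, add_zero]
          rw [show rootV j w ((a.toAdd : Fin m → F) + b.toAdd) z
            = rootV j w a.toAdd z + rootV j w b.toAdd z by
              simp [rootV_apply, mulVec_add, TensorMax.pure, add_vecMulVec]]
          abel))
    have hρ : Function.Injective ρ := by
      intro a b hab
      refine Multiplicative.toAdd.injective (Subtype.ext ?_)
      have : Nonempty (Fin m) := ⟨⟨0, by omega⟩⟩
      obtain ⟨u, hu⟩ := exists_ne (0 : TV F m s)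
      refine dotProduct_eq _ _ fun y => ?_
      have := LinearEquiv.congr_fun (congrArg (fun e : Kst => (e : G2).1) hab)
        ((slot j).symm (TensorMax.pure u y))
      simp only [ρ, MonoidHom.mk'_apply, hR, add_right_inj, rootV_apply,
        LinearEquiv.apply_symm_apply, pure_mulVec, EmbeddingLike.apply_eq_iff_eq] at this
      rw [dotProduct_comm, dotProduct_comm _ y]
      exact smul_left_injective F hu (TensorMax.pureL_injective hw this)
    obtain ⟨ψ₀, hψ₀, hwψ₀, -⟩ := exists_ne_zero_orth_two (by simpa using hm) w w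
    have hFC : Cfsg.IsFrobeniusComplement Kst := by
      refine ⟨fun hbot => ?_, fun htop => ?_, fun a ha => ?_⟩
      · have h1 : ρ (Multiplicative.ofAdd ⟨ψ₀, hwψ₀⟩) = 1 :=
          Subtype.ext ((Subgroup.eq_bot_iff_forall _).1 hbot _ (Subtype.prop _))
        have h2 := hρ (h1.trans (map_one ρ).symm)
        exact hψ₀ (congrArg Subtype.val (congrArg Multiplicative.toAdd h2))
      · obtain ⟨ψ', hψ', hvψ', -⟩ := exists_ne_zero_orth_two (by simpa using hm) v v
        obtain ⟨x, hx, hxy⟩ := inV_rootV hM k hvψ'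
        set y := g * x * g⁻¹
        have hy : y ∈ G2 := Subgroup.subset_closure (Or.inr ⟨ψ', hvψ', fun z => by
          change g (x (g.symm z)) = _
          rw [hxy, map_add, LinearEquiv.apply_symm_apply]⟩)
        have hys : (⟨y, hy⟩ : G2) ∈ Kst := htop ▸ Subgroup.mem_top _
        have hmy : y ∈ monoGroup F m (s + 1) := mono_of_member hM hm hsc hIH (hG2 hy).1 hw hw
          fun z hz => (show _ = _ from hys).le ⟨z, hz, rfl⟩
        refine hng ?_
        have := mono_of_conj hM hm hsc hIH (M.inv_mem hg) hv hψ' hvψ' hxy (by rwa [inv_inv])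
        simpa using (monoGroup F m (s + 1)).inv_mem this
      · rw [eq_bot_iff]
        intro h hh
        rw [Subgroup.mem_inf, Subgroup.mem_pointwise_smul_iff_inv_smul_mem, MulAut.smul_def] at hh
        rw [Subgroup.mem_bot]
        refine hTI h hh.1 a ha ?_
        simpa using hh.2
    haveI : Finite (TV F m (s + 1) ≃ₗ[F] TV F m (s + 1)) :=
      Finite.of_injective (fun e => (e : TV F m (s + 1) → TV F m (s + 1))) DFunLike.coe_injective
    obtain ⟨r, _, e, ρ', he, -, hρ'⟩ := CfsgLib.Frobenius.exists_prime_rep hFC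
    haveI : Nonempty (Fin e) := ⟨⟨0, he⟩⟩
    have hcyc : IsCyclic ρ.range := CfsgLib.Frobenius.Linear.isCyclic_subgroup_of_comm hρ' _
      ⟨⟨by rintro ⟨_, a, rfl⟩ ⟨_, b, rfl⟩; exact Subtype.ext (by simp only [Subgroup.coe_mul, ← map_mul, mul_comm])⟩⟩
    obtain ⟨p, hp⟩ := CharP.exists F
    haveI := hp
    have hpp : p.Prime := (CharP.char_is_prime_or_zero F p).resolve_right (CharP.char_ne_zero_of_finite F p)
    obtain ⟨c, hc⟩ := hcyc.exists_ofOrder_eq_natCard
    have hle : Nat.card ρ.range ≤ p := by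
      rw [← hc]
      refine orderOf_le_of_pow_eq_one hpp.pos ?_
      obtain ⟨_, a, rfl⟩ := c
      refine Subtype.ext ?_
      rw [SubmonoidClass.coe_pow, ← map_pow, show a ^ p = 1 from Multiplicative.toAdd.injective (by
        rw [toAdd_pow, toAdd_one, ← Nat.cast_smul_eq_nsmul F, CharP.cast_eq_zero, zero_smul]),
        map_one]
      rfl
    have hq : p ≤ Nat.card F := by
      rw [show p = addOrderOf (1 : F) from CharP.eq F hp (CharP.addOrderOf_one F)]
      exact addOrderOf_le_card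
    have hW : Nat.card F ^ 2 ≤ Nat.card ρ.range := by
      rw [← Nat.card_congr (MonoidHom.ofInjective hρ).toEquiv,
        Nat.card_congr Multiplicative.toAdd, Module.natCard_eq_pow_finrank (K := F) (V := W)]
      refine Nat.pow_le_pow_right Nat.card_pos ?_
      let dw : (Fin m → F) →ₗ[F] F :=
        { toFun := fun φ => w ⬝ᵥ φ
          map_add' := fun x y => dotProduct_add w x y
          map_smul' := fun c x => dotProduct_smul c w x }
      have h1 := LinearMap.finrank_range_add_finrank_ker dw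
      have h2 : finrank F (LinearMap.range dw) ≤ 1 :=
        (Submodule.finrank_le _).trans (Module.finrank_self F).le
      rw [finrank_pi, Fintype.card_fin] at h1
      change 2 ≤ finrank F (LinearMap.ker dw)
      omega
    have := Finite.one_lt_card (α := F)
    nlinarith

end CfsgLib.WreathTensor14
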