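import Cfsg.Agent.WreathTensor14.Basic
import Cfsg.Agent.TensorMax.Preserve

/-!
The lemmas of `TensorMax` that only need the right special linear factor.
-/

set_option autoImplicit false

namespace CfsgLib.WreathTensor14

open Matrix Module
open CfsgLib.TensorMax (InM rootMap memb colL pureL IsCoeff OnlyScalars exists_covec exists_dual
  pure_mulVec exists_orth_pair rootMap_apply rootMap_sq det_one_add_vecMulVec mem_memb pure_mem_memb
  exists_ne_zero_orth_two rootMap_pure mem_memb_of_forall_orth eq_pure_add_pure single_sub_orth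
  pureL_injective pureL_apply colL_apply pure_zero_left pure_zero_right)

variable {F : Type*} [Field F] {ι κ : Type} [Fintype ι] [DecidableEq ι] [Fintype κ] [DecidableEq κ]
variable {M : Subgroup (Matrix ι κ F ≃ₗ[F] Matrix ι κ F)}

lemma inM_one (hM : RightSL M) {w ψ : κ → F} (h : w ⬝ᵥ ψ = 0) :
    InM M (rootMap (1 : Matrix ι ι F) w ψ) := by
  obtain ⟨e, he, hey⟩ := hM (1 + vecMulVec w ψ)
    (by rw [det_one_add_vecMulVec, dotProduct_comm, h, add_zero])
  refine ⟨e, he, fun X => ?_⟩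
  rw [hey, transpose_add, transpose_one, Matrix.mul_add, Matrix.mul_one, transpose_vecMulVec, mul_vecMulVec,
    rootMap_apply, one_mulVec]
  rfl

lemma isCoeff_of_inM (hM : RightSL M) (hκ : 3 ≤ Fintype.card κ) {τ : Matrix ι ι F}
    {w₀ ψ₀ : κ → F} (hw₀ : w₀ ≠ 0) (hψ₀ : ψ₀ ≠ 0) (h₀ : w₀ ⬝ᵥ ψ₀ = 0)
    (h : InM M (rootMap τ w₀ ψ₀)) : IsCoeff M τ := by
  intro w ψ hw
  rcases eq_or_ne w 0 with rfl | hw0
  · exact InM.zero.congr fun X => by ext i j; simp [TensorMax.pure, vecMulVec_apply]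
  rcases eq_or_ne ψ 0 with rfl | hψ0
  · exact InM.zero.congr fun X => by ext i j; simp [TensorMax.pure, vecMulVec_apply]
  obtain ⟨b, hb, hbw, hbψ⟩ := exists_orth_pair hκ hw₀ hψ₀ h₀ hw0 hψ0 hw
  obtain ⟨e, he, hey⟩ := hM b hb
  refine (h.conj he).congr fun X => ?_
  have hX : e.symm X * bᵀ = X := by rw [← hey, e.apply_symm_apply]
  change TensorMax.pure (τ *ᵥ (X *ᵥ ψ)) w = e (TensorMax.pure (τ *ᵥ (e.symm X *ᵥ ψ₀)) w₀)
  conv_lhs => rw [← hX]
  rw [hey, ← mulVec_mulVec, mulVec_transpose, hbψ, TensorMax.pure, TensorMax.pure, vecMulVec_mul,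
    vecMul_transpose, hbw]

/-- An element of `M` that is a transvection along a member has scalar coefficient. -/
lemma eq_rootMap [Nonempty ι] (hM : RightSL M) (hκ : 3 ≤ Fintype.card κ) (hsc : OnlyScalars M)
    {N : Matrix ι κ F →ₗ[F] Matrix ι κ F} (hN : InM M N) {w₀ : κ → F} (hw₀ : w₀ ≠ 0)
    (hr : ∀ X, N X ∈ memb w₀) (hk : ∀ u, N (TensorMax.pure u w₀) = 0) :
    ∃ γ : κ → F, w₀ ⬝ᵥ γ = 0 ∧ ∀ X, N X = TensorMax.pure (X *ᵥ γ) w₀ := by
  obtain ⟨η, hη⟩ := exists_dual hw₀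
  set L : Matrix ι κ F →ₗ[F] (ι → F) := colL η ∘ₗ N
  have hNL : ∀ X, N X = TensorMax.pure (L X) w₀ := fun X => by
    obtain ⟨z, hz⟩ := mem_memb.1 (hr X)
    simp only [L, LinearMap.comp_apply, colL_apply]
    rw [← hz, pure_mulVec, hη, one_smul]
  have hsq : ∀ X, N (N X) = 0 := fun X => by rw [hNL X, hk]
  have key : ∀ b : κ → F, ∃ c : F, ∀ u, L (TensorMax.pure u b) = c • u := by
    intro b
    obtain ⟨χ, hχ0, hχw, hχb⟩ := exists_ne_zero_orth_two hκ w₀ b
    have h0 : ∀ X, rootMap (1 : Matrix ι ι F) b χ (N X) = 0 := fun X => by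
      rw [hNL, rootMap_pure, hχw, zero_smul]
    have hc := hN.comm (inM_one hM hχb) hsq (rootMap_sq 1 hχb) h0
    set τ := LinearMap.toMatrix' (L ∘ₗ pureL b)
    have hcoef : InM M (rootMap τ w₀ χ) := hc.congr fun X => by
      simp only [LinearMap.comp_apply, rootMap_apply, one_mulVec, τ, LinearMap.toMatrix'_mulVec,
        pureL_apply, hNL]
    obtain ⟨c, hc⟩ := hsc τ (isCoeff_of_inM hM hκ hw₀ hχ0 hχw hcoef)
    refine ⟨c, fun u => ?_⟩
    have := LinearMap.toMatrix'_mulVec (L ∘ₗ pureL b) u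
    rw [show LinearMap.toMatrix' (L ∘ₗ pureL b) = c • 1 from hc, smul_mulVec, one_mulVec] at this
    simpa using this.symm
  choose c hc using key
  refine ⟨fun j => c (Pi.single j 1), ?_, fun X => ?_⟩
  · obtain ⟨u, hu⟩ := exists_ne (0 : ι → F)
    have h1 : L (TensorMax.pure u w₀) = 0 := by simp [L, hk]
    have hs : TensorMax.pure u w₀ = ∑ j, w₀ j • TensorMax.pure u (Pi.single j (1 : F)) := by
      ext i k; simp [Matrix.sum_apply, TensorMax.pure, vecMulVec_apply, Pi.single_apply, mul_comm]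
    rw [hs, map_sum] at h1
    simp only [map_smul, hc, smul_smul, ← Finset.sum_smul] at h1
    exact (smul_eq_zero.1 h1).resolve_right hu
  · rw [hNL]
    congr 1
    have hX : X = ∑ j, TensorMax.pure (X *ᵥ Pi.single j 1) (Pi.single j (1 : F)) := by
      ext i k
      simp [Matrix.sum_apply, TensorMax.pure, vecMulVec_apply, Pi.single_apply]
    conv_lhs => rw [hX, map_sum]
    simp only [hc]
    ext i
    simp [mulVec, dotProduct, mul_comm]

/-- An element stabilising a member relates the covectors orthogonal to it. -/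
lemma exists_orth_of_stab [Nonempty ι] (hM : RightSL M) (hκ : 3 ≤ Fintype.card κ)
    (hsc : OnlyScalars M) {e : Matrix ι κ F ≃ₗ[F] Matrix ι κ F} (he : e ∈ M) {w₀ : κ → F}
    (hw₀ : w₀ ≠ 0) {A : (ι → F) →ₗ[F] (ι → F)} (hA : ∀ u, e (TensorMax.pure u w₀) = TensorMax.pure (A u) w₀)
    {φ : κ → F} (hφ : w₀ ⬝ᵥ φ = 0) :
    ∃ ψ, w₀ ⬝ᵥ ψ = 0 ∧ ∀ X, e X *ᵥ φ = A (X *ᵥ ψ) := by
  have hAi : Function.Injective A := fun a b hab =>
    pureL_injective hw₀ (e.injective (by simp [hA, hab]))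
  obtain ⟨ψ, hψ, hψe⟩ := eq_rootMap hM hκ hsc ((inM_one hM hφ).conj (M.inv_mem he)) hw₀
    (fun X => by
      obtain ⟨z, hz⟩ := LinearMap.surjective_of_injective hAi ((e X) *ᵥ φ)
      refine mem_memb.2 ⟨z, ?_⟩
      change TensorMax.pure z w₀ = e.symm (rootMap 1 w₀ φ (e X))
      rw [rootMap_apply, one_mulVec, e.eq_symm_apply, hA, hz])
    (fun u => by
      change e.symm (rootMap 1 w₀ φ (e (TensorMax.pure u w₀))) = 0
      rw [hA, rootMap_pure, hφ, zero_smul, map_zero])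
  refine ⟨ψ, hψ, fun X => ?_⟩
  have h := hψe X
  change e.symm (rootMap 1 w₀ φ (e X)) = _ at h
  rw [rootMap_apply, one_mulVec, e.symm_apply_eq, hA] at h
  exact pureL_injective hw₀ h

/-- The range of a transvection fixing a member pointwise, and complementary to it, is a member. -/
lemma exists_range_le_memb [Nonempty ι] (hM : RightSL M) (hκ : 3 ≤ Fintype.card κ)
    (hsc : OnlyScalars M) {N : Matrix ι κ F →ₗ[F] Matrix ι κ F} (hN : InM M N)
    (hsq : ∀ X, N (N X) = 0) (hrk : finrank F (LinearMap.range N) = Fintype.card ι) {w₀ : κ → F}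
    (hw₀ : w₀ ≠ 0) (hk : ∀ u, N (TensorMax.pure u w₀) = 0) (hdis : LinearMap.range N ⊓ memb w₀ = ⊥) :
    ∃ w, w ≠ 0 ∧ LinearMap.range N ≤ memb w := by
  obtain ⟨e, he, hey⟩ := id hN
  obtain ⟨η, hη⟩ := exists_dual hw₀
  have hA : ∀ u, e (TensorMax.pure u w₀) = TensorMax.pure ((LinearMap.id : (ι → F) →ₗ[F] (ι → F)) u) w₀ := fun u => by
    rw [hey, hk, add_zero]; rfl
  -- the covector through which `N` acts modulo the member
  have hδ : ∀ φ : κ → F, w₀ ⬝ᵥ φ = 0 →
      ∃ δ, w₀ ⬝ᵥ δ = 0 ∧ ∀ X, N X *ᵥ φ = X *ᵥ δ := by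
    intro φ hφ
    obtain ⟨ψ, hψ, hψe⟩ := exists_orth_of_stab hM hκ hsc he hw₀ hA hφ
    refine ⟨ψ - φ, by rw [dotProduct_sub, hψ, hφ, sub_zero], fun X => ?_⟩
    rw [mulVec_sub, show X *ᵥ ψ = e X *ᵥ φ from (hψe X).symm, hey, add_mulVec, add_sub_cancel_left]
  choose! δ hδ₀ hδ using hδ
  obtain ⟨φ₁, hφ₁, hne⟩ : ∃ φ, w₀ ⬝ᵥ φ = 0 ∧ δ φ ≠ 0 := by
    by_contra! h
    have hle : LinearMap.range N ≤ memb w₀ := by
      rintro _ ⟨X, rfl⟩
      exact mem_memb_of_forall_orth hw₀ fun φ hφ => by rw [hδ φ hφ, h φ hφ, mulVec_zero]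
    rw [inf_eq_left.2 hle] at hdis
    rw [hdis, finrank_bot] at hrk
    exact Fintype.card_ne_zero hrk.symm
  set γ := δ φ₁
  have hprop : ∀ φ, w₀ ⬝ᵥ φ = 0 → ∃ c : F, δ φ = c • γ := by
    intro φ hφ
    by_contra! hc
    have hnm : δ φ ∉ Submodule.span F ({γ} : Set (κ → F)) := fun hm => by
      obtain ⟨c, hc'⟩ := Submodule.mem_span_singleton.1 hm
      exact hc c hc'.symm
    have hnm' : γ ∉ Submodule.span F ({δ φ} : Set (κ → F)) := fun hm => by
      obtain ⟨c, hc'⟩ := Submodule.mem_span_singleton.1 hm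
      rcases eq_or_ne c 0 with rfl | hc0
      · exact hne (by rw [← hc', zero_smul])
      · exact hnm (Submodule.mem_span_singleton.2 ⟨c⁻¹, by rw [← hc', inv_smul_smul₀ hc0]⟩)
    obtain ⟨b, hb, hb'⟩ := exists_covec hnm
    obtain ⟨b₁, hb₁, hb₁'⟩ := exists_covec hnm'
    set P : LinearMap.range N →ₗ[F] (ι → F) × (ι → F) :=
      ((colL φ₁).prod (colL φ)) ∘ₗ (LinearMap.range N).subtype
    have hsurj : Function.Surjective P := by
      rintro ⟨u, u'⟩
      refine ⟨⟨N (TensorMax.pure u b₁ + TensorMax.pure u' b), LinearMap.mem_range_self _ _⟩, Prod.ext ?_ ?_⟩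
      · change N (TensorMax.pure u b₁ + TensorMax.pure u' b) *ᵥ φ₁ = u
        rw [hδ φ₁ hφ₁, add_mulVec, pure_mulVec, pure_mulVec, hb₁,
          hb' _ (Submodule.mem_span_singleton_self _), one_smul, zero_smul, add_zero]
      · change N (TensorMax.pure u b₁ + TensorMax.pure u' b) *ᵥ φ = u'
        rw [hδ φ hφ, add_mulVec, pure_mulVec, pure_mulVec, hb,
          hb₁' _ (Submodule.mem_span_singleton_self _), one_smul, zero_smul, zero_add]
    have h := LinearMap.finrank_le_finrank_of_injective (f := (LinearMap.range P).subtype)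
      (Submodule.injective_subtype _)
    have h2 := LinearMap.finrank_range_le P
    rw [LinearMap.range_eq_top.2 hsurj, finrank_top, Module.finrank_prod, Module.finrank_pi,
      hrk] at h2
    have := Fintype.card_pos (α := ι)
    omega
  choose! c hc using hprop
  obtain ⟨b, hb⟩ := exists_dual hne
  rw [dotProduct_comm] at hb
  -- `N` factors through `X ↦ X γ`
  have hfac : ∀ X, N X = N (TensorMax.pure (X *ᵥ γ) b) := fun X => by
    refine sub_eq_zero.1 ?_
    rw [← map_sub]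
    refine (Submodule.mem_bot F).1 (hdis ▸ Submodule.mem_inf.2 ⟨LinearMap.mem_range_self _ _,
      mem_memb_of_forall_orth hw₀ fun φ hφ => ?_⟩)
    rw [hδ φ hφ, hc φ hφ, mulVec_smul, sub_mulVec, pure_mulVec, hb, one_smul, sub_self, smul_zero]
  have hγw : w₀ ⬝ᵥ γ = 0 := hδ₀ φ₁ hφ₁
  -- the vector giving the range modulo the member
  set w₁ : κ → F := fun j => c (Pi.single j 1 - w₀ j • η)
  have hdec : ∀ u, N (TensorMax.pure u b) = TensorMax.pure u w₁ + TensorMax.pure (N (TensorMax.pure u b) *ᵥ η) w₀ := fun u => by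
    refine eq_pure_add_pure hη fun j => ?_
    rw [hδ _ (single_sub_orth hη j), hc _ (single_sub_orth hη j), mulVec_smul, pure_mulVec, hb,
      one_smul]
  have hzero : ∀ X, N X *ᵥ γ = 0 := fun X => by
    have h := hδ φ₁ hφ₁ (N X)
    rw [hsq, zero_mulVec] at h
    exact h.symm
  have hw₁ : w₁ ⬝ᵥ γ = 0 := by
    obtain ⟨u, hu⟩ := exists_ne (0 : ι → F)
    have h := hzero (TensorMax.pure u b)
    rw [hdec, add_mulVec, pure_mulVec, pure_mulVec, hγw, zero_smul, add_zero] at h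
    exact (smul_eq_zero.1 h).resolve_right hu
  -- remove the root element along `w₁`
  have hR := (inM_one hM hw₁ (ι := ι)).neg (rootMap_sq 1 hw₁)
  have hdiff := hN.add hR fun X => by
    rw [LinearMap.neg_apply, map_neg, rootMap_apply, one_mulVec, hfac, pure_mulVec, hw₁, zero_smul,
      pure_zero_left, map_zero, neg_zero]
  have heq : ∀ X, (N + -rootMap (1 : Matrix ι ι F) w₁ γ) X
      = TensorMax.pure (N (TensorMax.pure (X *ᵥ γ) b) *ᵥ η) w₀ := fun X => by
    rw [LinearMap.add_apply, LinearMap.neg_apply, rootMap_apply, one_mulVec, hfac X, hdec,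
      ← hdec (X *ᵥ γ)]
    conv_lhs => rw [hdec (X *ᵥ γ)]
    abel
  obtain ⟨γ₂, -, hγ₂⟩ := eq_rootMap hM hκ hsc hdiff hw₀
    (fun X => by rw [heq]; exact pure_mem_memb _ _)
    (fun u => by rw [heq, pure_mulVec, hγw, zero_smul, pure_zero_left, map_zero, zero_mulVec,
      pure_zero_left])
  have hscal : ∀ u, N (TensorMax.pure u b) = TensorMax.pure u (w₁ + (b ⬝ᵥ γ₂) • w₀) := fun u => by
    have h := hγ₂ (TensorMax.pure u b)
    rw [heq, pure_mulVec, hb, one_smul, pure_mulVec] at h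
    rw [hdec u, pureL_injective hw₀ h]
    ext i j
    simp [TensorMax.pure, vecMulVec_apply]
    ring
  refine ⟨w₁ + (b ⬝ᵥ γ₂) • w₀, fun h0 => ?_, ?_⟩
  · have hle : LinearMap.range N ≤ ⊥ := by
      rintro _ ⟨X, rfl⟩
      rw [Submodule.mem_bot, hfac, hscal, h0, pure_zero_right]
    rw [le_bot_iff] at hle
    rw [hle, finrank_bot] at hrk
    exact Fintype.card_ne_zero hrk.symm
  · rintro _ ⟨X, rfl⟩
    rw [hfac, hscal]
    exact pure_mem_memb _ _

lemma inf_memb_eq_bot {w w₀ : κ → F} (hw : w ∉ Submodule.span F ({w₀} : Set (κ → F))) :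
    memb (ι := ι) w ⊓ memb w₀ = ⊥ := by
  rw [eq_bot_iff]
  rintro X ⟨h1, h2⟩
  obtain ⟨u, rfl⟩ := mem_memb.1 h1
  obtain ⟨u', hu'⟩ := mem_memb.1 h2
  obtain ⟨η, hη, hη'⟩ := exists_covec hw
  have := congrArg (fun Z => Z *ᵥ η) hu'
  simp only [pure_mulVec] at this
  rw [dotProduct_comm, hη' _ (Submodule.mem_span_singleton_self _), zero_smul, dotProduct_comm, hη,
    one_smul] at this
  simp [← this]

/-- A map between two slot coordinates respecting root elements and carrying one member to a member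
is a product map. -/
theorem exists_mul_mul_of_member [Nonempty ι] [Nonempty κ] (hκ : 3 ≤ Fintype.card κ)
    {M' : Subgroup (Matrix ι κ F ≃ₗ[F] Matrix ι κ F)} (hM' : RightSL M') (hsc' : OnlyScalars M')
    (e : Matrix ι κ F ≃ₗ[F] Matrix ι κ F)
    (hconj : ∀ w φ : κ → F, w ⬝ᵥ φ = 0 → InM M' (e.toLinearMap ∘ₗ rootMap (1 : Matrix ι ι F) w φ ∘ₗ
      e.symm.toLinearMap))
    {w₀ v : κ → F} (hw₀ : w₀ ≠ 0) (hA : ∀ u, e (TensorMax.pure u w₀) ∈ memb v) :
    ∃ (a : Matrix ι ι F) (b : Matrix κ κ F), ∀ X, e X = a * X * bᵀ := by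
  have hv : v ≠ 0 := by
    rintro rfl
    obtain ⟨u, hu⟩ := exists_ne (0 : ι → F)
    obtain ⟨z, hz⟩ := mem_memb.1 (hA u)
    rw [pure_zero_right] at hz
    exact hu ((TensorMax.pure_eq_zero_iff hw₀).1 (e.injective (by rw [← hz, map_zero])))
  have himg : (memb w₀).map e.toLinearMap = memb (ι := ι) v :=
    TensorMax.eq_memb_of_le (by rw [LinearEquiv.finrank_map_eq, TensorMax.finrank_memb hw₀])
      (by rintro _ ⟨X, hX, rfl⟩; obtain ⟨u, rfl⟩ := mem_memb.1 hX; exact hA u) hv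
  refine TensorMax.exists_mul_mul e fun w hw => ?_
  by_cases hm : w ∈ Submodule.span F ({w₀} : Set (κ → F))
  · obtain ⟨c, rfl⟩ := Submodule.mem_span_singleton.1 hm
    refine ⟨v, fun u => ?_⟩
    rw [TensorMax.pure, vecMulVec_smul, map_smul]
    exact Submodule.smul_mem _ _ (hA u)
  obtain ⟨ψ, hψ, hψ₀, hψw⟩ := exists_ne_zero_orth_two hκ w₀ w
  set N := e.toLinearMap ∘ₗ rootMap (1 : Matrix ι ι F) w ψ ∘ₗ e.symm.toLinearMap
  have hr : LinearMap.range N = (memb w).map e.toLinearMap := by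
    rw [LinearMap.range_comp, LinearMap.range_comp_of_range_eq_top _ e.symm.range,
      TensorMax.range_rootMap_one hψ]
  obtain ⟨v', -, hv'⟩ := exists_range_le_memb hM' hκ hsc' (hconj w ψ hψw)
    (fun X => by
      change e (rootMap 1 w ψ (e.symm (e (rootMap 1 w ψ (e.symm X))))) = 0
      rw [e.symm_apply_apply, rootMap_sq 1 hψw, map_zero])
    (by rw [hr, LinearEquiv.finrank_map_eq, TensorMax.finrank_memb hw]) hv
    (fun u => by
      obtain ⟨X, hX, hXu⟩ := himg.ge (pure_mem_memb u v)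
      obtain ⟨u', rfl⟩ := mem_memb.1 hX
      change e (rootMap 1 w ψ (e.symm (TensorMax.pure u v))) = 0
      rw [← hXu, LinearEquiv.coe_coe, e.symm_apply_apply, rootMap_pure, hψ₀, zero_smul, map_zero])
    (by
      rw [hr, ← himg, ← Submodule.map_inf _ e.injective, inf_memb_eq_bot hm, Submodule.map_bot])
  exact ⟨v', fun u => hv' (hr ▸ ⟨TensorMax.pure u w, pure_mem_memb _ _, rfl⟩)⟩

end CfsgLib.WreathTensor14
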