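import Cfsg.Agent.WreathTensor14.Algebra
import Cfsg.Agent.WreathTensor14.Right
import Cfsg.Agent.TensorMax.Transvections

/-!
A non-scalar coefficient gives every transvection.
-/

set_option autoImplicit false

namespace CfsgLib.WreathTensor14

open Matrix Function
open CfsgLib.Aschbacher (kroneckerPow kroneckerPow_mul kroneckerPow_one)
open CfsgLib.TensorMax (InM rootMap IsCoeff rootMap_apply rootMap_sq elemMap elemMap_mul_eq_zero
  elemMap_comp rootMap_single)

variable {F : Type*} [Field F] {m t s : ℕ}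

lemma InV.congr {M : Subgroup (TV F m t ≃ₗ[F] TV F m t)} {N N' : TV F m t →ₗ[F] TV F m t}
    (h : InV M N) (he : N' = N) : InV M N' := he ▸ h

lemma InV.conj {M : Subgroup (TV F m t ≃ₗ[F] TV F m t)} {N : TV F m t →ₗ[F] TV F m t}
    (h : InV M N) {g : TV F m t ≃ₗ[F] TV F m t} (hg : g ∈ M) :
    InV M (g.toLinearMap ∘ₗ N ∘ₗ g.symm.toLinearMap) := by
  obtain ⟨e, he, hey⟩ := h
  refine ⟨g * e * g⁻¹, M.mul_mem (M.mul_mem hg he) (M.inv_mem hg), fun v => ?_⟩
  change g (e (g.symm v)) = _
  rw [hey, map_add, g.apply_symm_apply]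
  rfl

lemma kronE_insertNth_left (k : Fin (s + 1)) (gs : Fin s → GL (Fin m) F)
    (X : Matrix (Fin s → Fin m) (Fin m) F) :
    slotConj k (kronE (Fin.insertNth (α := fun _ => GL (Fin m) F) k 1 gs)) X
      = kroneckerPow (fun i => (gs i).val) * X := by
  obtain ⟨v, rfl⟩ := (slot k).surjective X
  rw [slotConj_apply, LinearEquiv.symm_apply_apply]
  have : ((kronE (Fin.insertNth (α := fun _ => GL (Fin m) F) k 1 gs)).trans (slot k)).toLinearMap
      = mulLeftLinearMap (Fin m) F (kroneckerPow fun i => (gs i).val) ∘ₗ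
        (slot k).toLinearMap := by
    refine linearMap_ext_pv fun x => ?_
    have hrest : (Fin.removeNth k fun i =>
        ((Fin.insertNth (α := fun _ => GL (Fin m) F) k 1 gs i : GL (Fin m) F) :
          Matrix (Fin m) (Fin m) F) *ᵥ x i) = fun i => (gs i).val *ᵥ Fin.removeNth k x i :=
      funext fun i => by simp [Fin.removeNth_apply]
    simp only [LinearEquiv.coe_coe, LinearEquiv.trans_apply, LinearMap.comp_apply,
      mulLeftLinearMap_apply, kronE_pv, slot_pv, TensorMax.pure, mul_vecMulVec,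
      kroneckerPow_mulVec_pv, hrest, Fin.insertNth_apply_same, Units.val_one, one_mulVec]
  exact LinearMap.congr_fun this v

variable {M : Subgroup (TV F m (s + 1) ≃ₗ[F] TV F m (s + 1))}

lemma Base.left_mem (hM : Base M) (k : Fin (s + 1)) (gs : Fin s → GL (Fin m) F)
    (hgs : ∀ i, (gs i).val.det = 1) :
    ∃ e ∈ slotGroup M k, ∀ X, e X = kroneckerPow (fun i => (gs i).val) * X := by
  refine ⟨_, Subgroup.mem_map_of_mem _ (hM.kron_mem _ ?_), kronE_insertNth_left k gs⟩
  intro i
  rcases Fin.eq_self_or_eq_succAbove k i with rfl | ⟨j, rfl⟩ <;> simp [hgs]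

/-- The coefficients at the factor `k`. -/
def coeff (M : Subgroup (TV F m (s + 1) ≃ₗ[F] TV F m (s + 1))) (k : Fin (s + 1)) :
    Submodule F (Matrix (Fin s → Fin m) (Fin s → Fin m) F) where
  carrier := {τ | IsCoeff (slotGroup M k) τ}
  add_mem' h h' := h.add h'
  zero_mem' w ψ _ := InM.zero.congr fun X => by simp
  smul_mem' c _ h := h.smul c

lemma mem_coeff {k : Fin (s + 1)} {τ : Matrix (Fin s → Fin m) (Fin s → Fin m) F} :
    τ ∈ coeff M k ↔ IsCoeff (slotGroup M k) τ := Iff.rfl

lemma coeff_conj (hM : Base M) {k : Fin (s + 1)} {τ : Matrix (Fin s → Fin m) (Fin s → Fin m) F}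
    (h : τ ∈ coeff M k) (gs : Fin s → GL (Fin m) F) (hgs : ∀ i, (gs i).val.det = 1) :
    kroneckerPow (fun i => (gs i).val) * τ * kroneckerPow (fun i => ((gs i)⁻¹).val)
      ∈ coeff M k := by
  intro w ψ hw
  obtain ⟨e, he, hey⟩ := hM.left_mem k gs hgs
  set a := kroneckerPow fun i => (gs i).val
  set a' := kroneckerPow fun i => ((gs i)⁻¹).val
  have haa : a' * a = 1 := by
    rw [kroneckerPow_mul]; simp [kroneckerPow_one]
  refine ((h w ψ hw).conj he).congr fun X => ?_
  have hX : a * e.symm X = X := by rw [← hey, e.apply_symm_apply]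
  change TensorMax.pure ((a * τ * a') *ᵥ (X *ᵥ ψ)) w
    = e (TensorMax.pure (τ *ᵥ (e.symm X *ᵥ ψ)) w)
  conv_lhs => rw [← hX]
  rw [hey, mulVec_mulVec, ← Matrix.mul_assoc (a * τ * a') a, mul_assoc (a * τ) a' a, haa,
    mul_one, TensorMax.pure, TensorMax.pure, mul_vecMulVec, mulVec_mulVec, mulVec_mulVec]

lemma coeff_conj_emb (hM : Base M) (k : Fin (s + 1)) (j : Fin s) (g h : Matrix (Fin m) (Fin m) F)
    (hg : g.det = 1) (hhg : h * g = 1) (τ : Matrix (Fin s → Fin m) (Fin s → Fin m) F)
    (hτ : τ ∈ coeff M k) : emb j g * τ * emb j h ∈ coeff M k := by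
  obtain ⟨u, rfl⟩ := exists_det_one_GL hg
  have hh : h = (u⁻¹).val :=
    (left_inv_eq_right_inv hhg (by rw [← Units.val_mul, mul_inv_cancel, Units.val_one]))
  have := coeff_conj hM hτ (Pi.mulSingle j u) fun i => by
    rcases eq_or_ne i j with rfl | h <;> simp [*]
  convert this using 3 <;>
  · unfold emb
    congr 1
    funext i
    rcases eq_or_ne i j with rfl | h <;> simp [*]

lemma one_mem_coeff (hM : Base M) (k : Fin (s + 1)) : (1 : Matrix _ _ F) ∈ coeff M k :=
  fun _ _ hw => inM_one (hM.rightSL k) hw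

lemma coeff_mul (hM : Base M) (hm : 3 ≤ m) {k : Fin (s + 1)}
    {σ τ : Matrix (Fin s → Fin m) (Fin s → Fin m) F} (hσ : σ ∈ coeff M k) (hτ : τ ∈ coeff M k) :
    σ * τ ∈ coeff M k := by
  let a : Fin m := ⟨0, by omega⟩
  let b : Fin m := ⟨1, by omega⟩
  let c : Fin m := ⟨2, by omega⟩
  have ab : (Pi.single a (1 : F)) ⬝ᵥ Pi.single b 1 = 0 := by simp [a, b, Fin.ext_iff]
  have bc : (Pi.single b (1 : F)) ⬝ᵥ Pi.single c 1 = 0 := by simp [b, c, Fin.ext_iff]
  have ac : (Pi.single a (1 : F)) ⬝ᵥ Pi.single c 1 = 0 := by simp [a, c, Fin.ext_iff]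
  refine isCoeff_of_inM (hM.rightSL k) (by simpa using hm) (w₀ := Pi.single a 1)
    (ψ₀ := Pi.single c 1) (by simp) (by simp) ac
    (((hσ _ _ ab).comm (hτ _ _ bc) (rootMap_sq σ ab) (rootMap_sq τ bc) fun X => ?_).congr fun X => ?_)
  · rw [rootMap_apply, rootMap_apply, TensorMax.pure_mulVec, ac, zero_smul, mulVec_zero,
      TensorMax.pure_zero_left]
  · rw [LinearMap.comp_apply, rootMap_apply, rootMap_apply, rootMap_apply, TensorMax.pure_mulVec,
      dotProduct_single, Pi.single_eq_same, mul_one, one_smul]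
    simp only [mulVec_mulVec, Matrix.mul_assoc]

lemma exists_move (hm : 3 ≤ m) {a b c d : Fin m} (hab : a ≠ b) (hcd : c ≠ d) :
    ∃ g : GL (Fin m) F, g.val.det = 1 ∧
      g.val * single a b (1 : F) * (g⁻¹).val = single c d 1 := by
  obtain ⟨g, hg, hgw, hgψ⟩ := TensorMax.exists_orth_pair (κ := Fin m) (F := F) (by simpa using hm)
    (w := Pi.single a 1) (ψ := Pi.single b 1) (w' := Pi.single c 1) (ψ' := Pi.single d 1)
    (by simp) (by simp) (by simp [hab.symm]) (by simp) (by simp) (by simp [hcd.symm])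
  obtain ⟨u, rfl⟩ := exists_det_one_GL hg
  refine ⟨u, hg, ?_⟩
  rw [show u.val * single a b (1 : F) = single c d 1 * u.val by
      rw [single_eq_single_vecMulVec_single, single_eq_single_vecMulVec_single, mul_vecMulVec,
        vecMulVec_mul, hgw, hgψ],
    mul_assoc, ← Units.val_mul, mul_inv_cancel, Units.val_one, mul_one]

lemma emb_smul (i : Fin t) (c : F) (A : Matrix (Fin m) (Fin m) F) :
    emb i (c • A) = c • emb i A := by
  ext x y
  rw [Matrix.smul_apply, ← Matrix.one_mul (emb i (c • A)), ← Matrix.one_mul (emb i A),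
    mul_emb_apply, mul_emb_apply, Finset.smul_sum]
  simp only [Matrix.smul_apply, smul_eq_mul]
  exact Finset.sum_congr rfl fun u _ => by ring

/-- A subspace containing the units in one factor contains everything in that factor. -/
lemma forall_emb_mem (T : Submodule F (Matrix (Fin t → Fin m) (Fin t → Fin m) F)) (j : Fin t)
    (R : Matrix (Fin t → Fin m) (Fin t → Fin m) F)
    (h : ∀ a b, emb j (single a b (1 : F)) * R ∈ T) (X : Matrix (Fin m) (Fin m) F) :
    emb j X * R ∈ T := by
  let L : Matrix (Fin m) (Fin m) F →ₗ[F] Matrix (Fin t → Fin m) (Fin t → Fin m) F :=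
    { toFun := fun X => emb j X * R
      map_add' := fun X Y => by rw [emb_add, add_mul]
      map_smul' := fun c X => by rw [emb_smul, Matrix.smul_mul, RingHom.id_apply] }
  change X ∈ T.comap L
  rw [matrix_eq_sum_single X]
  refine Submodule.sum_mem _ fun a _ => Submodule.sum_mem _ fun b _ => ?_
  rw [show single a b (X a b) = X a b • single a b (1 : F) by rw [smul_single, smul_eq_mul, mul_one]]
  exact Submodule.smul_mem _ _ (h a b)

/-- A non-scalar coefficient gives a whole factor of coefficients. -/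
lemma exists_factor_mem (hM : Base M) (hm : 3 ≤ m) {k : Fin (s + 1)}
    {τ : Matrix (Fin s → Fin m) (Fin s → Fin m) F} (hτ : τ ∈ coeff M k)
    (hns : ∀ c : F, τ ≠ c • 1) : ∃ i, ∀ X, emb i X ∈ coeff M k := by
  classical
  obtain ⟨A, hA, hAu, i₀, a₀, b₀, hab₀, hA₀⟩ :=
    exists_pure_mem hm (fun j g h hg hh τ hτ => coeff_conj_emb hM k j g h hg hh τ hτ) hτ hns
  refine ⟨i₀, fun X₀ => ?_⟩
  set I := Finset.univ.filter fun i => A i ≠ 1 with hI
  have hoff : ∀ c d : Fin s → Fin m, (∀ i ∈ I, c i ≠ d i) →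
      kroneckerPow (fun i => if i ∈ I then single (c i) (d i) (1 : F) else 1) ∈ coeff M k := by
    intro c d hcd
    have hmove : ∀ i, ∃ g : GL (Fin m) F, g.val.det = 1 ∧
        g.val * A i * (g⁻¹).val = if i ∈ I then single (c i) (d i) (1 : F) else 1 := by
      intro i
      by_cases hi : i ∈ I
      · obtain ⟨a, b, hab, he⟩ := (hAu i).resolve_left (Finset.mem_filter.1 hi).2
        obtain ⟨g, hg, hge⟩ := exists_move (F := F) hm hab (hcd i hi)
        exact ⟨g, hg, by rw [if_pos hi, he, hge]⟩
      · refine ⟨1, by simp, ?_⟩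
        rw [if_neg hi, show A i = 1 by simpa [hI] using hi]
        simp
    choose g hg hge using hmove
    have := coeff_conj hM hA g hg
    rwa [kroneckerPow_mul, kroneckerPow_mul, funext hge] at this
  have hunit : ∀ c d : Fin s → Fin m,
      kroneckerPow (fun i => if i ∈ I then single (c i) (d i) (1 : F) else 1) ∈ coeff M k := by
    intro c d
    have hex : ∀ i, ∃ e : Fin m, e ≠ c i ∧ e ≠ d i := fun i => by
      obtain ⟨e, -, he⟩ := Finset.exists_mem_notMem_of_card_lt_card
        (s := ({c i, d i} : Finset (Fin m))) (t := Finset.univ)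
        (lt_of_le_of_lt Finset.card_le_two
          (by simp only [Finset.card_univ, Fintype.card_fin]; omega))
      exact ⟨e, by simpa using he⟩
    choose e he₁ he₂ using hex
    have := coeff_mul hM hm (hoff c e fun i _ => (he₁ i).symm) (hoff e d fun i _ => he₂ i)
    rw [kroneckerPow_mul] at this
    convert this using 2
    funext i
    split_ifs with hi <;> simp
  have hfull : ∀ J, J ⊆ I → ∀ (X : Fin s → Matrix (Fin m) (Fin m) F) (c d : Fin s → Fin m),
      kroneckerPow (fun i => if i ∈ J then X i else if i ∈ I then single (c i) (d i) (1 : F) else 1)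
        ∈ coeff M k := by
    intro J
    clear hI
    clear_value I
    induction J using Finset.induction_on with
    | empty => intro _ X c d; simpa using hunit c d
    | @insert j J hj ih =>
      intro hJI X c d
      have hjI : j ∈ I := hJI (Finset.mem_insert_self _ _)
      have hJ : J ⊆ I := (Finset.subset_insert _ _).trans hJI
      set B := fun i => if i ∈ J then X i else if i ∈ I then single (c i) (d i) (1 : F) else 1
      have hsplit : ∀ Y, emb j Y * kroneckerPow (update B j 1) = kroneckerPow (update B j Y) := by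
        intro Y
        rw [emb, kroneckerPow_mul]
        congr 1
        funext i
        rcases eq_or_ne i j with rfl | h <;> simp [*]
      convert forall_emb_mem (coeff M k) j (kroneckerPow (update B j 1)) (fun a b => ?_) (X j) using 1
      · rw [hsplit]
        congr 1
        funext i
        rcases eq_or_ne i j with rfl | h <;> simp [B, *]
      · rw [hsplit]
        convert ih hJ X (update c j a) (update d j b) using 2
        funext i
        rcases eq_or_ne i j with rfl | h <;> simp [B, *]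
  have hi₀ : i₀ ∈ I := by
    rw [hI, Finset.mem_filter]
    refine ⟨Finset.mem_univ _, fun h => ?_⟩
    have := congrFun (congrFun (hA₀ ▸ h) a₀) b₀
    simp [hab₀] at this
  convert hfull I subset_rfl (Pi.mulSingle i₀ X₀) (fun _ => a₀) (fun _ => a₀) using 1
  unfold emb
  congr 1
  funext i
  rcases eq_or_ne i i₀ with rfl | h
  · simp [hi₀]
  · by_cases hi : i ∈ I <;> simp [h, hi]

/-- The product root elements of the two factors `k`, `j` lie in `M`. -/
def Linked (M : Subgroup (TV F m (s + 1) ≃ₗ[F] TV F m (s + 1))) (k j : Fin (s + 1)) : Prop :=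
  k ≠ j ∧ ∀ w ψ w' ψ' : Fin m → F, w ⬝ᵥ ψ = 0 → w' ⬝ᵥ ψ' = 0 →
    InV M (mulVecLin (kroneckerPow (update (update 1 k (vecMulVec w ψ)) j (vecMulVec w' ψ'))))

lemma Linked.symm {k j : Fin (s + 1)} (h : Linked M k j) : Linked M j k :=
  ⟨h.1.symm, fun w ψ w' ψ' hw hw' => (h.2 w' ψ' w ψ hw' hw).congr (by rw [update_comm h.1])⟩

lemma inV_of_coeff {k : Fin (s + 1)} {B : Fin s → Matrix (Fin m) (Fin m) F}
    (h : kroneckerPow B ∈ coeff M k) {w ψ : Fin m → F} (hw : w ⬝ᵥ ψ = 0) :
    InV M (mulVecLin (kroneckerPow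
      (Fin.insertNth (α := fun _ => Matrix (Fin m) (Fin m) F) k (vecMulVec w ψ) B))) :=
  (inM_slotGroup_iff.1 (h w ψ hw)).congr (LinearMap.ext fun v => (pureMul_slot k B w ψ v).symm)

lemma coeff_of_inV (hM : Base M) (hm : 3 ≤ m) {k : Fin (s + 1)}
    {B : Fin s → Matrix (Fin m) (Fin m) F}
    (h : ∀ w ψ : Fin m → F, w ⬝ᵥ ψ = 0 → InV M (mulVecLin (kroneckerPow
      (Fin.insertNth (α := fun _ => Matrix (Fin m) (Fin m) F) k (vecMulVec w ψ) B)))) :
    kroneckerPow B ∈ coeff M k := fun w ψ hw =>
  inM_slotGroup_iff.2 ((h w ψ hw).congr (LinearMap.ext fun v => pureMul_slot k B w ψ v))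

lemma insertNth_mulSingle {α : Type*} [One α] (k : Fin (s + 1)) (i : Fin s) (a x : α) :
    Fin.insertNth (α := fun _ => α) k a (Pi.mulSingle i x)
      = update (update (1 : Fin (s + 1) → α) k a) (k.succAbove i) x := by
  funext l
  rcases Fin.eq_self_or_eq_succAbove k l with rfl | ⟨j, rfl⟩
  · simp [Fin.ne_succAbove]
  · rcases eq_or_ne j i with rfl | h
    · simp
    · simp [h, Fin.succAbove_ne, Fin.succAbove_right_injective.eq_iff]

lemma permE_conj_kron (σ : Equiv.Perm (Fin t)) (B : Fin t → Matrix (Fin m) (Fin m) F) :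
    (permE σ).toLinearMap ∘ₗ mulVecLin (kroneckerPow B) ∘ₗ (permE σ).symm.toLinearMap
      = mulVecLin (kroneckerPow fun i => B (σ⁻¹ i)) := by
  refine linearMap_ext_pv fun x => ?_
  have hs : (permE σ).symm (pv x) = pv fun i => x (σ i) := by
    rw [LinearEquiv.symm_apply_eq, permE_pv]; simp
  simp only [LinearMap.comp_apply, LinearEquiv.coe_coe, hs, mulVecLin_apply, kroneckerPow_mulVec_pv,
    permE_pv]
  simp

lemma Linked.perm (hM : Base M) {k j : Fin (s + 1)} (h : Linked M k j)
    {σ : Equiv.Perm (Fin (s + 1))} (hσ : σ ^ 3 = 1) : Linked M (σ k) (σ j) := by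
  refine ⟨σ.injective.ne h.1, fun w ψ w' ψ' hw hw' =>
    ((h.2 w ψ w' ψ' hw hw').conj (hM.perm_mem σ hσ)).congr ?_⟩
  rw [permE_conj_kron]
  congr 2
  funext l
  simp only [update_apply, Equiv.Perm.inv_def, Equiv.symm_apply_eq, Pi.one_apply]

/-- All pairs of factors are linked. -/
lemma Linked.all (hM : Base M) {x y : Fin (s + 1)} (h : Linked M x y) {a b : Fin (s + 1)}
    (hab : a ≠ b) : Linked M a b := by
  have third : ∀ {x y : Fin (s + 1)}, Linked M x y → ∀ z, z ≠ x → z ≠ y → Linked M z x := by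
    intro x y hxy z hzx hzy
    have h3 : (Equiv.swap x y * Equiv.swap x z) ^ 3 = 1 := by
      rw [← (Equiv.Perm.isThreeCycle_swap_mul_swap_same hxy.1 hzx.symm hzy.symm).orderOf]
      exact pow_orderOf_eq_one _
    have h' := hxy.perm hM h3
    have e1 : (Equiv.swap x y * Equiv.swap x z) x = z := by
      rw [Equiv.Perm.mul_apply, Equiv.swap_apply_left, Equiv.swap_apply_of_ne_of_ne hzx hzy]
    have e2 : (Equiv.swap x y * Equiv.swap x z) y = x := by
      rw [Equiv.Perm.mul_apply, Equiv.swap_apply_of_ne_of_ne hxy.1.symm hzy.symm,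
        Equiv.swap_apply_right]
    rwa [e1, e2] at h'
  obtain ⟨p, hp⟩ : ∃ p, Linked M a p := by
    rcases eq_or_ne a x with rfl | hax
    · exact ⟨y, h⟩
    rcases eq_or_ne a y with rfl | hay
    · exact ⟨x, h.symm⟩
    · exact ⟨x, third h a hax hay⟩
  rcases eq_or_ne b p with rfl | hbp
  · exact hp
  · exact (third hp b hab.symm hbp).symm

/-- A non-scalar coefficient makes every matrix a coefficient. -/
theorem coeff_eq_top (hM : Base M) (hm : 3 ≤ m) {k₀ : Fin (s + 1)}
    {τ : Matrix (Fin s → Fin m) (Fin s → Fin m) F} (hτ : τ ∈ coeff M k₀)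
    (hns : ∀ c : F, τ ≠ c • 1) (k : Fin (s + 1)) : coeff M k = ⊤ := by
  classical
  obtain ⟨i₀, hi₀⟩ := exists_factor_mem hM hm hτ hns
  have hlink : Linked M k₀ (k₀.succAbove i₀) := by
    refine ⟨Fin.ne_succAbove _ _, fun w ψ w' ψ' hw hw' => ?_⟩
    rw [← insertNth_mulSingle]
    exact inV_of_coeff (B := Pi.mulSingle i₀ (vecMulVec w' ψ')) (hi₀ _) hw
  have hemb : ∀ (i : Fin s) (a b : Fin m), emb i (single a b (1 : F)) ∈ coeff M k := by
    intro i
    have hoff : ∀ a b : Fin m, a ≠ b → emb i (single a b (1 : F)) ∈ coeff M k := fun a b hab =>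
      coeff_of_inV hM hm fun w ψ hw => by
        rw [insertNth_mulSingle, single_eq_single_vecMulVec_single]
        exact (hlink.all hM (Fin.ne_succAbove k i)).2 _ _ _ _ hw (by simp [hab.symm])
    intro a b
    obtain ⟨e, -, he⟩ := Finset.exists_mem_notMem_of_card_lt_card
      (s := ({a, b} : Finset (Fin m))) (t := Finset.univ)
      (lt_of_le_of_lt Finset.card_le_two (by simp only [Finset.card_univ, Fintype.card_fin]; omega))
    simp only [Finset.mem_insert, Finset.mem_singleton, not_or] at he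
    have := coeff_mul hM hm (hoff a e (Ne.symm he.1)) (hoff e b he.2)
    rwa [emb_mul, single_mul_single_same, one_mul] at this
  have hprod : ∀ (J : Finset (Fin s)) (A : Fin s → Matrix (Fin m) (Fin m) F),
      kroneckerPow (J.piecewise A 1) ∈ coeff M k := by
    intro J A
    induction J using Finset.induction_on with
    | empty =>
      rw [Finset.piecewise_empty, show (1 : Fin s → Matrix (Fin m) (Fin m) F) = fun _ => 1 from rfl,
        kroneckerPow_one]
      exact one_mem_coeff hM k
    | @insert j J hj ih =>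
      have hA : emb j (A j) ∈ coeff M k := by
        have := forall_emb_mem (coeff M k) j 1 (fun a b => by rw [Matrix.mul_one]; exact hemb j a b)
          (A j)
        rwa [Matrix.mul_one] at this
      convert coeff_mul hM hm hA ih using 1
      rw [emb, kroneckerPow_mul]
      congr 1
      funext i
      rcases eq_or_ne i j with rfl | h <;> simp [hj, *]
  rw [eq_top_iff]
  rintro τ -
  rw [matrix_eq_sum_single τ]
  refine Submodule.sum_mem _ fun x _ => Submodule.sum_mem _ fun y _ => ?_
  rw [show single x y (τ x y) = τ x y • single x y (1 : F) by rw [smul_single, smul_eq_mul, mul_one]]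
  refine Submodule.smul_mem _ _ ?_
  convert hprod Finset.univ (fun i => single (x i) (y i) (1 : F)) using 1
  ext p q
  rw [Finset.piecewise_univ, kroneckerPow, Matrix.of_apply, single_apply]
  by_cases h : x = p ∧ y = q
  · obtain ⟨rfl, rfl⟩ := h; simp
  · rw [if_neg h]
    rcases not_and_or.1 h with h | h <;> obtain ⟨i, hi⟩ := Function.ne_iff.1 h <;>
      exact (Finset.prod_eq_zero (Finset.mem_univ i) (by simp [single_apply, hi])).symm

/-- A non-scalar coefficient gives every transvection. -/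
theorem transvection_mem (hM : Base M) (hm : 3 ≤ m) (hsc : ¬ OnlyScal M)
    {x y : Fin (s + 1) → Fin m} (hxy : x ≠ y) (c : F) :
    ∃ e ∈ M, ∀ v, e v = v + (c * v y) • Pi.single x 1 := by
  simp only [OnlyScal, TensorMax.OnlyScalars, not_forall, not_exists] at hsc
  obtain ⟨k₀, τ, hτ, hns⟩ := hsc
  have hall : ∀ σ, σ ∈ coeff M 0 := fun σ => coeff_eq_top hM hm hτ hns 0 ▸ trivial
  have hgen : ∀ (i j : Fin s → Fin m) (a b : Fin m) (c : F), a ≠ b →
      InM (slotGroup M 0) (elemMap i a j b c) := fun i j a b c hab =>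
    ((hall (single i j 1)) (Pi.single a 1) (Pi.single b c) (by simp [hab.symm])).congr fun X =>
      (rootMap_single i j a b c X).symm
  have key : ∀ (i j : Fin s → Fin m) (a b : Fin m), ¬(i = j ∧ a = b) →
      InM (slotGroup M 0) (elemMap i a j b c) := by
    intro i j a b hne
    rcases eq_or_ne a b with rfl | hab
    · obtain ⟨p, -, hp⟩ := Finset.exists_mem_notMem_of_card_lt_card
        (s := ({a} : Finset (Fin m))) (t := Finset.univ)
        (by simp only [Finset.card_univ, Fintype.card_fin, Finset.card_singleton]; omega)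
      simp only [Finset.mem_singleton] at hp
      exact ((hgen i i a p c (Ne.symm hp)).comm (hgen i j p a 1 hp)
        (elemMap_mul_eq_zero (fun h => hp h.2.symm) c c)
        (elemMap_mul_eq_zero (fun h => hp h.2) 1 1) (elemMap_mul_eq_zero hne c 1)).congr fun X => by
          rw [LinearMap.comp_apply, elemMap_comp, mul_one]
    · exact hgen i j a b c hab
  obtain ⟨e, he, hey⟩ := inM_slotGroup_iff.1 (key (Fin.removeNth 0 x) (Fin.removeNth 0 y) (x 0) (y 0)
    fun h => hxy (by
      rw [← Fin.insertNth_self_removeNth 0 x, ← Fin.insertNth_self_removeNth 0 y, h.1, h.2]))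
  refine ⟨e, he, fun v => ?_⟩
  rw [hey]
  refine congrArg (v + ·) ((slot 0).injective ?_)
  simp only [LinearMap.comp_apply, LinearEquiv.coe_coe, LinearEquiv.apply_symm_apply,
    TensorMax.elemMap_apply, map_smul, slot_apply, Fin.insertNth_self_removeNth]
  congr 1
  ext p a
  rw [slot_apply, single_apply, Pi.single_apply]
  congr 1
  rw [eq_iff_iff]
  constructor
  · rintro ⟨h1, h2⟩; rw [← h1, ← h2, Fin.insertNth_self_removeNth]
  · rintro rfl; simp

end CfsgLib.WreathTensor14
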