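import Cfsg.Agent.WreathTensor14.Rigid
import Cfsg.Agent.Classical.SLTransvGen

/-!
Maximality of the tensor wreath product in the special linear group.
-/

set_option autoImplicit false

namespace CfsgLib.WreathTensor14

open Matrix Function Module
open scoped Kronecker MatrixGroups
open CfsgLib.Aschbacher (kroneckerPow kroneckerPow_mul kroneckerPow_one)

variable {F : Type*} [Field F] {m t s : ℕ}

/-- With only scalar coefficients all elements are monomial. -/
theorem mono_all [Finite F] (hm : 3 ≤ m) : ∀ (s : ℕ)
    (M : Subgroup (TV F m (s + 1) ≃ₗ[F] TV F m (s + 1))), Base M → OnlyScal M →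
    ∀ g ∈ M, g ∈ monoGroup F m (s + 1) := by
  intro s
  induction s with
  | zero => exact fun _ _ _ g _ => mem_mono_one g
  | succ s ih =>
    exact fun M hM hsc g hg =>
      mono_step hM hm hsc (fun k => ih _ (hM.factor k) (hsc.factor hm hM k)) hg

lemma det_kroneckerPow_mulSingle (k : Fin (s + 1)) (A : Matrix (Fin m) (Fin m) F) :
    (kroneckerPow (Pi.mulSingle k A)).det = A.det ^ (m ^ s) := by
  let e : (Fin s → Fin m) × Fin m ≃ (Fin (s + 1) → Fin m) :=
    (Equiv.prodComm _ _).trans (Fin.insertNthEquiv (fun _ => Fin m) k)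
  have h : kroneckerPow (Pi.mulSingle k A)
      = Matrix.reindex e e ((1 : Matrix (Fin s → Fin m) (Fin s → Fin m) F) ⊗ₖ A) := by
    ext x y
    rw [kroneckerPow, Matrix.of_apply, Fin.prod_univ_succAbove _ k, Matrix.reindex_apply,
      Matrix.submatrix_apply, Matrix.kroneckerMap_apply, mul_comm,
      show (1 : Matrix (Fin s → Fin m) (Fin s → Fin m) F) = kroneckerPow (fun _ => 1) from
        kroneckerPow_one.symm]
    simp [e, kroneckerPow]
    exact Or.inl rfl
  rw [h, Matrix.det_reindex_self, Matrix.det_kronecker, det_one, one_pow, one_mul, Fintype.card_fun,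
    Fintype.card_fin, Fintype.card_fin]

lemma det_krGL {gs : Fin t → GL (Fin m) F} (h : ∀ i, (gs i).val.det = 1) :
    (krGL gs).val.det = 1 := by
  rcases t with _ | s
  · rw [show gs = 1 from funext fun i => i.elim0, map_one, Units.val_one, det_one]
  have hprod : ∀ J : Finset (Fin (s + 1)),
      (kroneckerPow (J.piecewise (fun i => (gs i).val) 1)).det = 1 := by
    intro J
    induction J using Finset.induction_on with
    | empty =>
      rw [Finset.piecewise_empty, show (1 : Fin (s + 1) → Matrix (Fin m) (Fin m) F) = fun _ => 1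
        from rfl, kroneckerPow_one, det_one]
    | @insert j J hj ih =>
      rw [show (insert j J).piecewise (fun i => (gs i).val) 1
          = fun i => (Pi.mulSingle j (gs j).val : Fin (s + 1) → Matrix (Fin m) (Fin m) F) i *
            J.piecewise (fun i => (gs i).val) 1 i from funext fun i => by
          rcases eq_or_ne i j with rfl | h <;> simp [hj, *],
        ← kroneckerPow_mul, det_mul, ih, det_kroneckerPow_mulSingle, h, one_pow, one_mul]
  have := hprod Finset.univ
  rwa [Finset.piecewise_univ] at this

lemma exists_perm_GL (σ : Equiv.Perm (Fin t)) (hσ : σ ^ 3 = 1) :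
    ∃ g ∈ Cfsg.Geo.tensorWreathStandard m t F,
      g.val.det = 1 ∧ toE g = permE (F := F) (m := m) σ := by
  classical
  let π : Equiv.Perm (Fin t → Fin m) :=
    { toFun := fun x => x ∘ σ
      invFun := fun x => x ∘ σ.symm
      left_inv := fun x => by simp [Function.comp_assoc]
      right_inv := fun x => by simp [Function.comp_assoc] }
  have hπ : π ^ 3 = 1 := Equiv.ext fun x => funext fun i => by
    have := Equiv.congr_fun hσ i
    simp only [pow_succ, pow_zero, one_mul, Equiv.Perm.mul_apply, Equiv.Perm.one_apply] at this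
    simp only [pow_succ, pow_zero, one_mul, Equiv.Perm.mul_apply, Equiv.Perm.one_apply]
    exact congrArg x this
  have hsign : Equiv.Perm.sign π = 1 := by
    have h3 := congrArg Equiv.Perm.sign hπ
    rw [map_pow, map_one, pow_succ, sq, Int.units_mul_self, one_mul] at h3
    exact h3
  have hdet : (π.permMatrix F).det = 1 := by rw [Matrix.det_permutation, hsign]; simp
  have hent : ∀ x y, π.permMatrix F x y = if y = x ∘ σ then 1 else 0 := fun x y => by
    simp [Equiv.Perm.permMatrix, PEquiv.toMatrix_apply, π, eq_comm]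
  let g := Matrix.GeneralLinearGroup.mkOfDetNeZero (π.permMatrix F) (by rw [hdet]; exact one_ne_zero)
  refine ⟨g, Subgroup.subset_closure (Or.inr ⟨σ, hent⟩), hdet, LinearEquiv.ext fun v => funext fun x => ?_⟩
  rw [toE_apply, mulVec, dotProduct, Fintype.sum_eq_single (x ∘ σ) fun y hy => by
    rw [show g.val x y = 0 from (hent x y).trans (if_neg hy), zero_mul]]
  rw [show g.val x (x ∘ σ) = 1 from (hent x _).trans (if_pos rfl), one_mul]
  rfl

/-- The special linear group is not inside the tensor wreath product. -/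
lemma transvection_not_mono (hm : 3 ≤ m) (hs : 1 ≤ s) {x y : Fin (s + 1) → Fin m} (hxy : x ≠ y)
    {g : TV F m (s + 1) ≃ₗ[F] TV F m (s + 1)} (hg : ∀ v, g v = v + v y • Pi.single x 1) :
    g ∉ monoGroup F m (s + 1) := by
  classical
  intro hmono
  have hN : ∀ v, nil g v = v y • Pi.single x 1 := fun v => by rw [nil_apply, hg, add_sub_cancel_left]
  have hr : finrank F (LinearMap.range (nil g)) ≤ 1 := by
    refine (Submodule.finrank_mono (show LinearMap.range (nil g)
      ≤ Submodule.span F ({Pi.single x 1} : Set (TV F m (s + 1))) from ?_)).trans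
      (finrank_span_singleton (by simp)).le
    rintro _ ⟨v, rfl⟩
    rw [hN]
    exact Submodule.smul_mem _ _ (Submodule.mem_span_singleton_self _)
  have hms : 3 ≤ m ^ s := hm.trans (Nat.le_self_pow (by omega) m)
  have hne : g ≠ 1 := fun h => by
    have := congrFun (hN (Pi.single y 1)) x
    rw [h, nil_apply] at this
    simp at this
  rcases mono_classify hm hmono (fun v => by
      rw [hN (nil g v), hN v]
      simp [hxy.symm]) hne (hr.trans (le_trans (by omega) hms)) with
    ⟨k, w, hw, hkw⟩ | ⟨hm3, D, a, b, hab, hs'⟩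
  · rw [hkw, finrank_smemb _ hw] at hr
    omega
  · subst hm3
    set P : TV F 3 (s + 1) ≃ₗ[F] TV F 3 (s + 1) := permE (Equiv.swap a b)
    let p : Fin (s + 1) → Fin 3 := fun i => if i = b then 1 else 0
    let q : Fin (s + 1) → Fin 3 := fun i => if i = b then 2 else 0
    let f : F × F →ₗ[F] TV F 3 (s + 1) := (kronE D).toLinearMap ∘ₗ nil P ∘ₗ
      (LinearMap.toSpanSingleton F _ (Pi.single p 1)).coprod
        (LinearMap.toSpanSingleton F _ (Pi.single q 1))
    have hf : Function.Injective f := by
      rw [injective_iff_map_eq_zero]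
      rintro ⟨c, d⟩ h
      simp only [f, LinearMap.comp_apply, LinearEquiv.coe_coe, LinearEquiv.map_eq_zero_iff,
        LinearMap.coprod_apply, LinearMap.toSpanSingleton_apply, nil_apply] at h
      have hpa : p a = 0 := by simp [p, hab]
      have hpq : p ≠ q := fun e => by
        have := congrFun e b
        simp [p, q] at this
      have e1 : p ∘ Equiv.swap a b ≠ p := fun e => by
        have := congrFun e a
        simp [p, hab] at this
      have e2 : q ∘ Equiv.swap a b ≠ q := fun e => by
        have := congrFun e a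
        simp [q, hab] at this
      have e3 : p ∘ Equiv.swap a b ≠ q := fun e => by
        have := congrFun e b
        simp [p, q, hab] at this
      have e4 : q ∘ Equiv.swap a b ≠ p := fun e => by
        have := congrFun e b
        simp [p, q, hab] at this
      have h1 := congrFun h p
      have h2 := congrFun h q
      simp [P, e1, e2, e3, e4, hpq, hpq.symm] at h1 h2
      exact Prod.ext h1 h2
    have hle : LinearMap.range f ≤ LinearMap.range (nil g) := by
      rintro _ ⟨z, rfl⟩
      refine ⟨kronE D ((LinearMap.toSpanSingleton F _ (Pi.single p 1)).coprod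
        (LinearMap.toSpanSingleton F _ (Pi.single q 1)) z), ?_⟩
      rw [nil_apply, hs']
      simp only [f, LinearMap.comp_apply, LinearEquiv.coe_coe, nil_apply, LinearEquiv.mul_apply,
        map_sub]
      change kronE D (P ((kronE D).symm (kronE D _))) - _ = _
      rw [LinearEquiv.symm_apply_apply]
    have h2 := Submodule.finrank_mono hle
    rw [LinearMap.finrank_range_of_inj hf, Module.finrank_prod, Module.finrank_self] at h2
    omega

/-- Maximality in standard coordinates. -/
theorem standard_maximal [Finite F] (hm : 3 ≤ m) (hs : 1 ≤ s) :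
    Cfsg.Geo.IsMaximalIn (Cfsg.Geo.specialLinear (Fin (s + 1) → Fin m) F)
      (Cfsg.Geo.tensorWreathStandard m (s + 1) F ⊓
        Cfsg.Geo.specialLinear (Fin (s + 1) → Fin m) F) := by
  classical
  set J := Fin (s + 1) → Fin m
  have hsl : ∀ {g : GL J F}, g.val.det = 1 → g ∈ Cfsg.Geo.specialLinear J F := fun h =>
    MonoidHom.mem_ker.2 (Units.ext h)
  have hmem : ∀ {g : GL J F}, toE g ∈ monoGroup F m (s + 1) →
      g ∈ Cfsg.Geo.tensorWreathStandard m (s + 1) F := fun {g} hg => by
    rw [← map_toE_tensorWreathStandard] at hg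
    exact (Subgroup.mem_map_iff_mem toE_injective).1 hg
  let x : J := fun _ => ⟨0, by omega⟩
  let y : J := fun _ => ⟨1, by omega⟩
  have hxy : x ≠ y := fun h => by simpa [x, y, Fin.ext_iff] using congrFun h 0
  refine ⟨lt_of_le_of_ne inf_le_right fun h => ?_, fun M hle hMle => ?_⟩
  · set T := Matrix.GeneralLinearGroup.mkOfDetNeZero (Matrix.transvection x y (1 : F))
      (by rw [det_transvection_of_ne x y hxy]; exact one_ne_zero)
    have hT : T ∈ Cfsg.Geo.specialLinear J F := hsl (det_transvection_of_ne x y hxy 1)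
    have hTs : toE T ∈ monoGroup F m (s + 1) := by
      rw [← map_toE_tensorWreathStandard]
      exact Subgroup.mem_map_of_mem _ (h ▸ hT).1
    refine transvection_not_mono hm hs hxy (fun v => ?_) hTs
    rw [toE_apply]
    change Matrix.transvection x y (1 : F) *ᵥ v = _
    rw [Matrix.transvection, add_mulVec, one_mulVec, Matrix.single_mulVec]
    congr 1
    funext z
    simp [Function.update_apply, Pi.single_apply]
  by_cases hM' : OnlyScal (M.map (toE (F := F) (α := J)))
  · have hB : Base (M.map (toE (F := F) (α := J))) := by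
      refine ⟨fun gs hgs => ⟨krGL gs, hle ⟨Subgroup.subset_closure (Or.inl ⟨gs, fun _ _ => rfl⟩),
        hsl (det_krGL hgs)⟩, rfl⟩, fun σ hσ => ?_⟩
      obtain ⟨g, hg, hdet, hgσ⟩ := exists_perm_GL (F := F) (m := m) σ hσ
      exact ⟨g, hle ⟨hg, hsl hdet⟩, hgσ⟩
    refine Or.inl (le_antisymm (le_inf (fun g hg => hmem ?_) hMle) hle)
    exact mono_all hm s _ hB hM' _ (Subgroup.mem_map_of_mem _ hg)
  · refine Or.inr (le_antisymm hMle fun g hg => ?_)
    have hB : Base (M.map (toE (F := F) (α := J))) := by
      refine ⟨fun gs hgs => ⟨krGL gs, hle ⟨Subgroup.subset_closure (Or.inl ⟨gs, fun _ _ => rfl⟩),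
        hsl (det_krGL hgs)⟩, rfl⟩, fun σ hσ => ?_⟩
      obtain ⟨g, hg, hdet, hgσ⟩ := exists_perm_GL (F := F) (m := m) σ hσ
      exact ⟨g, hle ⟨hg, hsl hdet⟩, hgσ⟩
    have htop : M.comap Matrix.SpecialLinearGroup.toGL = ⊤ :=
      CfsgLib.SLTransvGen.eq_top_of_tv_mem _ fun i j hij c => by
        obtain ⟨_, ⟨u, hu, rfl⟩, hev⟩ := transvection_mem hB hm hM' hij c
        rw [Subgroup.mem_comap]
        suffices h : Matrix.SpecialLinearGroup.toGL (CfsgLib.SLTransvGen.tv hij c) = u by
          rw [h]; exact hu
        refine toE_injective (F := F) (α := J) (LinearEquiv.ext fun v => ?_)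
        rw [hev, toE_apply]
        change Matrix.transvection i j c *ᵥ v = _
        rw [Matrix.transvection, add_mulVec, one_mulVec, Matrix.single_mulVec]
        congr 1
        funext z
        simp [Function.update_apply, Pi.single_apply]
    let g' : Matrix.SpecialLinearGroup J F := ⟨g.val, congrArg Units.val (MonoidHom.mem_ker.1 hg)⟩
    have := htop.ge (Subgroup.mem_top g')
    rw [Subgroup.mem_comap, show Matrix.SpecialLinearGroup.toGL g' = g from Units.ext rfl] at this
    exact this

/-- The stabiliser of a tensor power decomposition is maximal in the special linear group. -/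
theorem tensorWreath_maximal {ι : Type} [Fintype ι] [DecidableEq ι] [Finite F] (hm : 3 ≤ m)
    (ht : 2 ≤ t) (e : ι ≃ (Fin t → Fin m)) (P : GL ι F) :
    Cfsg.Geo.IsMaximalIn (Cfsg.Geo.specialLinear ι F)
      (Cfsg.Geo.tensorWreathSubgroup m t e P ⊓ Cfsg.Geo.specialLinear ι F) := by
  obtain ⟨s, rfl⟩ : ∃ s, t = s + 1 := ⟨t - 1, by omega⟩
  set ψ : GL (Fin (s + 1) → Fin m) F ≃* GL ι F :=
    (Cfsg.Geo.glReindex e.symm).trans (MulAut.conj P)
  have hdet : ∀ g, (ψ g).val.det = g.val.det := fun g => by
    change ((P : Matrix ι ι F) * Matrix.reindex e.symm e.symm g.val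
      * ((P⁻¹ : GL ι F) : Matrix ι ι F)).det = _
    rw [Matrix.det_units_conj, Matrix.det_reindex_self]
  have hS : (Cfsg.Geo.specialLinear (Fin (s + 1) → Fin m) F).map ψ.toMonoidHom
      = Cfsg.Geo.specialLinear ι F := by
    ext g
    rw [Subgroup.mem_map_equiv, Cfsg.Geo.specialLinear, MonoidHom.mem_ker, Cfsg.Geo.specialLinear,
      MonoidHom.mem_ker, Units.ext_iff, Units.ext_iff, Matrix.GeneralLinearGroup.val_det_apply,
      Matrix.GeneralLinearGroup.val_det_apply]
    conv_rhs => rw [← ψ.apply_symm_apply g, hdet]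
  have hW : (Cfsg.Geo.tensorWreathStandard m (s + 1) F).map ψ.toMonoidHom
      = Cfsg.Geo.tensorWreathSubgroup m (s + 1) e P := by
    rw [Cfsg.Geo.tensorWreathSubgroup, Subgroup.map_map]
    rfl
  obtain ⟨hlt, hmax⟩ := standard_maximal (F := F) (m := m) (s := s) hm (by omega)
  rw [← hW, ← hS, ← Subgroup.map_inf _ _ _ ψ.injective]
  refine ⟨(Subgroup.map_lt_map_iff_of_injective ψ.injective).2 hlt, fun M h1 h2 => ?_⟩
  have hM : M = (M.comap ψ.toMonoidHom).map ψ.toMonoidHom :=
    (Subgroup.map_comap_eq_self_of_surjective ψ.surjective M).symm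
  rcases hmax (M.comap ψ.toMonoidHom) (Subgroup.map_le_iff_le_comap.1 h1)
    ((Subgroup.comap_mono h2).trans (Subgroup.comap_map_eq_self_of_injective ψ.injective _).le)
    with h | h
  · exact Or.inl (by rw [hM, h])
  · exact Or.inr (by rw [hM, h])

end CfsgLib.WreathTensor14
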