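import Cfsg.Agent.WreathTensor14.Descent

/-!
Monomial elements `g` with `(g - 1)² = 0` moving at most `m ^ (t - 1)` dimensions.
-/

set_option autoImplicit false

namespace CfsgLib.WreathTensor14

open Matrix Function Module
open CfsgLib.Aschbacher (kroneckerPow kroneckerPow_mul kroneckerPow_one kroneckerPow_smul)
open CfsgLib.TensorMax (memb colL exists_covec exists_dual pure_mulVec eq_smul_one_of_forall_mem_span)

variable {F : Type*} [Field F] {m t s : ℕ}

/-- `g - 1`. -/
def nil (g : TV F m t ≃ₗ[F] TV F m t) : TV F m t →ₗ[F] TV F m t := g.toLinearMap - LinearMap.id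

@[simp] lemma nil_apply (g : TV F m t ≃ₗ[F] TV F m t) (v : TV F m t) : nil g v = g v - v := rfl

/-- A conjugate of a transposition of two factors of dimension three. -/
def IsSwap (g : TV F m t ≃ₗ[F] TV F m t) : Prop :=
  m = 3 ∧ ∃ (D : Fin t → GL (Fin m) F) (a b : Fin t), a ≠ b ∧
    g = kronE D * permE (Equiv.swap a b) * (kronE D)⁻¹

lemma pv_dot_pv (φ x : Fin t → Fin m → F) : pv φ ⬝ᵥ pv x = ∏ i, φ i ⬝ᵥ x i := by
  simp only [dotProduct, pv, ← Finset.prod_mul_distrib]
  exact (Fintype.prod_sum fun i a => φ i a * x i a).symm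

lemma kronE_permE_pv (gs : Fin t → GL (Fin m) F) (σ : Equiv.Perm (Fin t)) (x : Fin t → Fin m → F) :
    (kronE gs * permE σ : TV F m t ≃ₗ[F] TV F m t) (pv x) = pv fun i => (gs i).val *ᵥ x (σ⁻¹ i) := by
  rw [LinearEquiv.mul_apply, permE_pv, kronE_pv]

lemma mem_span_of_pv_eq {x y : Fin t → Fin m → F} (hx : ∀ i, x i ≠ 0) (h : pv y = pv x) (i : Fin t) :
    y i ∈ Submodule.span F ({x i} : Set (Fin m → F)) := by
  choose φ hφ using fun l => exists_dual (hx l)
  by_contra hm
  obtain ⟨χ, hχ, hχ'⟩ := exists_covec hm
  have h1 := congrArg (pv (update φ i χ) ⬝ᵥ ·) h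
  simp only [pv_dot_pv] at h1
  rw [Finset.prod_eq_zero (Finset.mem_univ i) (f := fun l => update φ i χ l ⬝ᵥ x l)
    (by rw [update_self]; exact hχ' _ (Submodule.mem_span_singleton_self _))] at h1
  rw [Finset.prod_eq_zero_iff] at h1
  obtain ⟨l, -, hl⟩ := h1
  rcases eq_or_ne l i with rfl | hli
  · rw [update_self, hχ] at hl; exact one_ne_zero hl
  · rw [update_of_ne hli] at hl
    have h2 := congrArg (pv φ ⬝ᵥ ·) h
    simp only [pv_dot_pv] at h2
    rw [Finset.prod_eq_zero (Finset.mem_univ l) (f := fun l => φ l ⬝ᵥ y l) hl,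
      Finset.prod_eq_one fun l _ => by rw [dotProduct_comm, hφ]] at h2
    exact zero_ne_one h2

/-- A monomial map equal to the identity has trivial permutation and scalar parts. -/
lemma eq_one_of_kronE_mul_permE (hm : 3 ≤ m) {gs : Fin t → GL (Fin m) F} {σ : Equiv.Perm (Fin t)}
    (h : kronE gs * permE σ = 1) : σ = 1 ∧ ∀ i, ∃ c : F, (gs i).val = c • 1 := by
  have hkey : ∀ x : Fin t → Fin m → F, (∀ i, x i ≠ 0) → ∀ i,
      (gs i).val *ᵥ x (σ⁻¹ i) ∈ Submodule.span F ({x i} : Set (Fin m → F)) := by
    intro x hx i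
    refine mem_span_of_pv_eq (y := fun i => (gs i).val *ᵥ x (σ⁻¹ i)) hx ?_ i
    rw [← kronE_permE_pv, h]
    rfl
  let o : Fin m := ⟨0, by omega⟩
  have hσ : σ = 1 := by
    rw [← inv_eq_one]
    refine Equiv.ext fun i => ?_
    by_contra hi
    rw [Equiv.Perm.one_apply] at hi
    set y := (gs i).val *ᵥ Pi.single o (1 : F)
    have hy : y ≠ 0 := fun h0 => by
      have := congrArg (fun v => ((gs i)⁻¹).val *ᵥ v) h0
      simp only [y, mulVec_mulVec, ← Units.val_mul, inv_mul_cancel, Units.val_one, one_mulVec,
        mulVec_zero] at this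
      simp at this
    obtain ⟨z, hz⟩ : ∃ z, z ∉ Submodule.span F ({y} : Set (Fin m → F)) := by
      by_contra! hc
      have h1 : finrank F (⊤ : Submodule F (Fin m → F)) ≤ 1 :=
        (Submodule.finrank_mono (show ⊤ ≤ Submodule.span F ({y} : Set (Fin m → F)) from
          fun x _ => hc x)).trans (finrank_span_singleton hy).le
      rw [finrank_top, finrank_pi, Fintype.card_fin] at h1
      omega
    have hz0 : z ≠ 0 := fun h0 => hz (h0 ▸ zero_mem _)
    have := hkey (update (fun _ => Pi.single o 1) i z) (fun l => by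
      rcases eq_or_ne l i with rfl | h <;> simp [*]) i
    rw [update_self, update_of_ne hi] at this
    obtain ⟨c, hc⟩ := Submodule.mem_span_singleton.1 this
    rcases eq_or_ne c 0 with rfl | hc0
    · exact hy (by rw [show y = _ from hc.symm, zero_smul])
    · exact hz (Submodule.mem_span_singleton.2 ⟨c⁻¹, by
        rw [show y = _ from hc.symm, inv_smul_smul₀ hc0]⟩)
  refine ⟨hσ, fun i => eq_smul_one_of_forall_mem_span _ fun u => ?_⟩
  rcases eq_or_ne u 0 with rfl | hu
  · simp
  · have := hkey (update (fun _ => Pi.single o 1) i u) (fun l => by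
      rcases eq_or_ne l i with rfl | h <;> simp [*]) i
    rwa [hσ, inv_one, Equiv.Perm.one_apply, update_self] at this

lemma finrank_smemb (k : Fin (s + 1)) {w : Fin m → F} (hw : w ≠ 0) :
    finrank F (smemb k w) = m ^ s := by
  rw [smemb_eq_map, LinearEquiv.finrank_map_eq, TensorMax.finrank_memb hw, Fintype.card_fun,
    Fintype.card_fin, Fintype.card_fin]

lemma slot_kronE (gs : Fin (s + 1) → GL (Fin m) F) (k : Fin (s + 1)) (u : TV F m s)
    (y : Fin m → F) :
    kronE gs ((slot k).symm (TensorMax.pure u y))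
      = (slot k).symm (TensorMax.pure (kronE (Fin.removeNth k gs) u) ((gs k).val *ᵥ y)) := by
  have : (kronE gs).toLinearMap ∘ₗ (slot k).symm.toLinearMap ∘ₗ TensorMax.pureL y
      = (slot k).symm.toLinearMap ∘ₗ TensorMax.pureL ((gs k).val *ᵥ y) ∘ₗ
        (kronE (Fin.removeNth k gs)).toLinearMap := by
    refine linearMap_ext_pv fun x => ?_
    simp only [LinearMap.comp_apply, LinearEquiv.coe_coe, TensorMax.pureL_apply]
    rw [← slot_pv_insertNth k y x, LinearEquiv.symm_apply_apply, kronE_pv, kronE_pv,
      LinearEquiv.eq_symm_apply, slot_pv]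
    congr 1
    · congr 1
      funext i
      simp [Fin.removeNth_apply]
    · simp
  exact LinearMap.congr_fun this u

/-- Tensor products `g` with `(g - 1)² = 0` of small rank move exactly a member. -/
theorem kron_range (hm : 3 ≤ m) : ∀ (s : ℕ) (gs : Fin (s + 1) → GL (Fin m) F),
    (∀ v, nil (kronE gs) (nil (kronE gs) v) = 0) → kronE gs ≠ 1 →
    finrank F (LinearMap.range (nil (kronE gs))) ≤ m ^ s →
    ∃ k w, w ≠ 0 ∧ LinearMap.range (nil (kronE gs)) = smemb k w := by
  intro s
  induction s with
  | zero =>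
    intro gs h2 hne hrk
    have hN : LinearMap.range (nil (kronE gs)) ≠ ⊥ := fun h => hne (LinearEquiv.ext fun v => by
      have := LinearMap.congr_fun (LinearMap.range_eq_bot.1 h) v
      simpa [sub_eq_zero] using this)
    obtain ⟨x, hx, hx0⟩ := Submodule.exists_mem_ne_zero_of_ne_bot hN
    set w := slot 0 x (fun i => i.elim0) with hw
    have hxw : slot 0 x = TensorMax.pure (fun _ => (1 : F)) w := by
      ext p a
      rw [TensorMax.pure, vecMulVec_apply, one_mul, hw, Subsingleton.elim p fun i => i.elim0]
    have hw0 : w ≠ 0 := fun h0 => hx0 ((slot 0).injective (by rw [hxw, h0, map_zero]; simp))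
    have hle : smemb 0 w ≤ LinearMap.range (nil (kronE gs)) := by
      intro y hy
      obtain ⟨u, hu⟩ := TensorMax.mem_memb.1 hy
      have : y = u (fun i => i.elim0) • x := (slot 0).injective (by
        rw [map_smul, hxw]
        rw [LinearEquiv.coe_coe] at hu
        rw [← hu]
        ext p a
        simp [TensorMax.pure, vecMulVec_apply, Subsingleton.elim p fun i => i.elim0])
      rw [this]
      exact Submodule.smul_mem _ _ hx
    exact ⟨0, w, hw0, (Submodule.eq_of_le_of_finrank_le hle (by rwa [finrank_smemb 0 hw0])).symm⟩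
  | succ s ih =>
    intro gs h2 hne hrk
    set N := nil (kronE gs) with hNdef
    set A := kronE (Fin.removeNth 0 gs)
    set B := (gs 0).val
    have hN : ∀ u y, N ((slot 0).symm (TensorMax.pure u y))
        = (slot 0).symm (TensorMax.pure (A u) (B *ᵥ y) - TensorMax.pure u y) := fun u y => by
      rw [hNdef, nil_apply, slot_kronE, map_sub]
    by_cases hB : ∀ y, B *ᵥ y ∈ Submodule.span F ({y} : Set (Fin m → F))
    · obtain ⟨β, hβ⟩ := eq_smul_one_of_forall_mem_span B hB
      have : Nonempty (Fin m) := ⟨⟨0, by omega⟩⟩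
      have hβ0 : β ≠ 0 := fun h0 => (gs 0).ne_zero (by
        rw [show (gs 0).val = β • 1 from hβ, h0, zero_smul])
      let ts : Fin (s + 1) → GL (Fin m) F := fun i => Fin.removeNth 0 gs i *
        if i = 0 then Units.map (Matrix.scalar (Fin m)).toMonoidHom (Units.mk0 β hβ0) else 1
      set T := kronE ts with hT
      have hTA : ∀ u, T u = β • A u := by
        intro u
        rw [hT, kronE_apply, kronE_apply, ← smul_mulVec]
        congr 1
        rw [show (fun i => (ts i).val) = fun i => (if i = 0 then β else 1) •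
          (Fin.removeNth 0 gs i).val from funext fun i => by
            simp only [ts]
            split_ifs with h
            · rw [Units.val_mul]
              change _ * Matrix.scalar (Fin m) β = _
              rw [Matrix.scalar_apply, ← Matrix.smul_one_eq_diagonal, Matrix.mul_smul, mul_one]
            · simp, kroneckerPow_smul]
        simp
      have hNT : ∀ u y, N ((slot 0).symm (TensorMax.pure u y))
          = (slot 0).symm (TensorMax.pure (nil T u) y) := fun u y => by
        rw [hN, hβ, smul_mulVec, one_mulVec, nil_apply, hTA, TensorMax.pure, TensorMax.pure,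
          TensorMax.pure, sub_vecMulVec, smul_vecMulVec, vecMulVec_smul]
      let o : Fin m := ⟨0, by omega⟩
      have h2' : ∀ v, nil T (nil T v) = 0 := fun v => by
        have := h2 ((slot 0).symm (TensorMax.pure v (Pi.single o 1)))
        rw [hNT, hNT, LinearEquiv.map_eq_zero_iff,
          TensorMax.pure_eq_zero_iff (by simp)] at this
        exact this
      have hcol : ∀ v : TV F m (s + 2), (slot 0).symm (∑ a, TensorMax.pure (slot 0 v *ᵥ Pi.single a 1)
          (Pi.single a (1 : F))) = v := fun v => by
        rw [LinearEquiv.symm_apply_eq]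
        ext p a
        simp [Matrix.sum_apply, TensorMax.pure, vecMulVec_apply, Pi.single_apply]
      have hT1 : T ≠ 1 := fun h1 => hne (LinearEquiv.ext fun v => by
        have : N v = 0 := by
          conv_lhs => rw [← hcol v, map_sum, map_sum]
          exact Finset.sum_eq_zero fun a _ => by rw [hNT, h1]; simp
        rwa [hNdef, nil_apply, sub_eq_zero] at this)
      -- the rank
      let J : (Fin m → LinearMap.range (nil T)) →ₗ[F] TV F m (s + 2) :=
        { toFun := fun f => (slot 0).symm (Matrix.of fun p a => (f a).1 p)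
          map_add' := fun f f' => (slot 0).symm.map_add (Matrix.of fun p a => (f a).1 p)
            (Matrix.of fun p a => (f' a).1 p)
          map_smul' := fun c f => (slot 0).symm.map_smul c (Matrix.of fun p a => (f a).1 p) }
      have hJ : Function.Injective J := fun f f' h => funext fun a => Subtype.ext <| funext fun p =>
        congrFun (congrFun ((slot 0).symm.injective h) p) a
      have hJr : LinearMap.range J ≤ LinearMap.range N := by
        rintro _ ⟨f, rfl⟩
        choose u hu using fun a => (f a).2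
        refine ⟨∑ a, (slot 0).symm (TensorMax.pure (u a) (Pi.single a 1)), ?_⟩
        rw [map_sum]
        simp only [hNT, hu, ← map_sum]
        refine congrArg (slot 0).symm (Matrix.ext fun p a => ?_)
        simp [Matrix.sum_apply, TensorMax.pure, vecMulVec_apply, Pi.single_apply]
      have h3 : m * finrank F (LinearMap.range (nil T)) ≤ finrank F (LinearMap.range N) := by
        have := Submodule.finrank_mono hJr
        rwa [LinearMap.finrank_range_of_inj hJ, Module.finrank_pi_fintype, Finset.sum_const,
          Finset.card_univ, Fintype.card_fin, smul_eq_mul] at this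
      obtain ⟨k, w, hw, hkw⟩ := ih ts h2' hT1 (Nat.le_of_mul_le_mul_left
        (by rw [← pow_succ']; exact h3.trans hrk) (by omega))
      rw [← hT] at hkw
      have hle : LinearMap.range N ≤ smemb ((0 : Fin (s + 2)).succAbove k) w := by
        rintro _ ⟨v, rfl⟩
        rw [← hcol v, map_sum, map_sum]
        refine Submodule.sum_mem _ fun a _ => ?_
        rw [hNT]
        obtain ⟨z, hz⟩ := TensorMax.mem_memb.1 (hkw.le ⟨slot 0 v *ᵥ Pi.single a 1, rfl⟩)
        rw [LinearEquiv.coe_coe] at hz
        rw [← (slot k).symm_apply_apply (nil T _), ← hz, symm_pure_swap]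
        exact symm_pure_mem _ _ _
      refine ⟨_, w, hw, Submodule.eq_of_le_of_finrank_le hle ?_⟩
      rw [finrank_smemb _ hw, pow_succ']
      rw [hkw, finrank_smemb _ hw] at h3
      exact h3
    push Not at hB
    obtain ⟨y, hy⟩ := hB
    obtain ⟨φ, hφ, hφ'⟩ := exists_covec (v := B *ᵥ y) hy
    have hφy : φ ⬝ᵥ y = 0 := hφ' _ (Submodule.mem_span_singleton_self _)
    set L := N ∘ₗ (slot 0).symm.toLinearMap ∘ₗ TensorMax.pureL y
    have hLφ : ∀ u, slot 0 (L u) *ᵥ φ = A u := fun u => by
      simp only [L, LinearMap.comp_apply, LinearEquiv.coe_coe, TensorMax.pureL_apply, hN,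
        LinearEquiv.apply_symm_apply, sub_mulVec, pure_mulVec]
      rw [dotProduct_comm, hφ, dotProduct_comm y, hφy, one_smul, zero_smul, sub_zero]
    have hLi : Function.Injective L := fun u u' h => A.injective (by rw [← hLφ, ← hLφ, h])
    have hLN : LinearMap.range L = LinearMap.range N := by
      refine Submodule.eq_of_le_of_finrank_le (LinearMap.range_comp_le_range _ _) ?_
      rw [LinearMap.finrank_range_of_inj hLi, finrank_pi, Fintype.card_fun, Fintype.card_fin,
        Fintype.card_fin]
      exact hrk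
    -- the other part is scalar
    have hA : ∀ u, A u ∈ Submodule.span F ({u} : Set (TV F m (s + 1))) := by
      intro u
      obtain ⟨z, hz, hzφ⟩ : ∃ z : Fin m → F, z ≠ 0 ∧ z ⬝ᵥ φ = 0 ∧ (B *ᵥ z) ⬝ᵥ φ = 0 := by
        obtain ⟨z, hz, h1, h2'⟩ :=
          TensorMax.exists_ne_zero_orth_two (κ := Fin m) (by simpa using hm) φ (φ ᵥ* B)
        refine ⟨z, hz, by rw [dotProduct_comm, h1], ?_⟩
        rw [dotProduct_comm, dotProduct_mulVec, h2']
      obtain ⟨u', hu'⟩ := hLN.ge ⟨(slot 0).symm (TensorMax.pure u z), rfl⟩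
      have hAu : A u' = 0 := by
        rw [← hLφ, hu', hN, LinearEquiv.apply_symm_apply, sub_mulVec, pure_mulVec, pure_mulVec,
          hzφ.1, hzφ.2, zero_smul, zero_smul, sub_zero]
      rw [(LinearEquiv.map_eq_zero_iff A).1 hAu, map_zero, hN, eq_comm,
        LinearEquiv.map_eq_zero_iff, sub_eq_zero] at hu'
      obtain ⟨η, hη⟩ := exists_dual hz
      have h3 := congrArg (fun Z => Z *ᵥ η) hu'
      simp only [pure_mulVec, hη, one_smul] at h3
      rcases eq_or_ne ((B *ᵥ z) ⬝ᵥ η) 0 with h0 | h0
      · rw [h0, zero_smul] at h3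
        rw [← h3, map_zero]
        exact Submodule.zero_mem _
      · exact Submodule.mem_span_singleton.2 ⟨((B *ᵥ z) ⬝ᵥ η)⁻¹, by
          conv_lhs => rw [← h3]
          rw [inv_smul_smul₀ h0]⟩
    obtain ⟨α, hα⟩ := eq_smul_one_of_forall_mem_span (LinearMap.toMatrix' A.toLinearMap) fun u => by
      rw [LinearMap.toMatrix'_mulVec]; exact hA u
    have hAα : ∀ u, A u = α • u := fun u => by
      rw [← LinearEquiv.coe_coe, ← LinearMap.toMatrix'_mulVec A.toLinearMap, hα, smul_mulVec,
        one_mulVec]
    set w := α • (B *ᵥ y) - y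
    have hw : w ≠ 0 := fun h0 => by
      rw [sub_eq_zero] at h0
      rcases eq_or_ne α 0 with rfl | hα0
      · exact hy (by rw [← h0]; simp [show y = 0 by simpa using h0.symm])
      · exact hy (Submodule.mem_span_singleton.2 ⟨α⁻¹, by
          conv_lhs => rw [← h0]
          rw [inv_smul_smul₀ hα0]⟩)
    refine ⟨0, w, hw, Submodule.eq_of_le_of_finrank_le ?_ ?_⟩
    · rw [← hLN]
      rintro _ ⟨u, rfl⟩
      simp only [L, LinearMap.comp_apply, LinearEquiv.coe_coe, TensorMax.pureL_apply, hN, hAα]
      convert symm_pure_mem 0 u w using 2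
      ext p a
      simp [TensorMax.pure, vecMulVec_apply, w]
      ring
    · rw [finrank_smemb _ hw, ← hLN, LinearMap.finrank_range_of_inj hLi, finrank_pi,
        Fintype.card_fun, Fintype.card_fin, Fintype.card_fin]

/-- The value of a monomial map. -/
lemma kronE_permE_apply (gs : Fin t → GL (Fin m) F) (σ : Equiv.Perm (Fin t)) (v : TV F m t)
    (x : Fin t → Fin m) :
    (kronE gs * permE σ : TV F m t ≃ₗ[F] TV F m t) v x = ∑ y, kroneckerPow (fun i => (gs i).val) x y * v (y ∘ σ) := by
  rw [LinearEquiv.mul_apply, kronE_apply]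
  rfl

/-- A normalised involution of small rank is a transposition. -/
lemma perm_involution (hm : 3 ≤ m) {e : Fin (s + 1) → GL (Fin m) F}
    {σ : Equiv.Perm (Fin (s + 1))} (hσ : σ * σ = 1) (hσ1 : σ ≠ 1)
    (he : ∀ i, σ i ≠ i → ∃ c : F, (e i).val = c • 1)
    (hrk : finrank F (LinearMap.range (nil (kronE e * permE σ))) ≤ m ^ s) :
    m = 3 ∧ (∃ a b, a ≠ b ∧ σ = Equiv.swap a b) ∧ kronE e * permE σ = permE σ := by
  classical
  set g := kronE e * permE σ
  set K := kroneckerPow fun i => (e i).val
  have hss : ∀ i, σ (σ i) = i := fun i => Equiv.congr_fun hσ i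
  have hsx : ∀ x : Fin (s + 1) → Fin m, x ∘ σ ∘ σ = x := fun x => funext fun i => by simp [hss]
  let o : Fin m := ⟨0, by omega⟩
  set Mv := Finset.univ.filter fun i => σ i ≠ i with hMv
  have hK : ∀ x y : Fin (s + 1) → Fin m, (∃ i ∈ Mv, x i ≠ y i) → K x y = 0 := by
    rintro x y ⟨i, hi, hxy⟩
    obtain ⟨c, hc⟩ := he i (Finset.mem_filter.1 hi).2
    exact Finset.prod_eq_zero (Finset.mem_univ i) (by simp [hc, one_apply_ne hxy])
  let key : (Fin (s + 1) → Fin m) → ℕ := fun x =>
    ((Fintype.equivFin (Fin (s + 1) → Fin m)) (Mv.piecewise x fun _ => o) : ℕ)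
  have key_eq : ∀ x y, key x = key y ↔ ∀ i ∈ Mv, x i = y i := by
    intro x y
    simp only [key, Fin.val_inj, (Fintype.equivFin _).injective.eq_iff]
    refine ⟨fun h i hi => ?_, fun h => funext fun i => ?_⟩
    · simpa [Finset.piecewise_eq_of_mem, hi] using congrFun h i
    · by_cases hi : i ∈ Mv <;> simp [hi]
      exact h i hi
  have key_fix : ∀ x : Fin (s + 1) → Fin m, key x = key (x ∘ σ) ↔ x ∘ σ = x := by
    intro x
    rw [key_eq]
    refine ⟨fun h => funext fun i => ?_, fun h i _ => (congrFun h i).symm⟩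
    by_cases hi : i ∈ Mv
    · exact (h i hi).symm
    · have : σ i = i := by simpa [hMv] using hi
      simp [this]
  set O := Finset.univ.filter fun x : Fin (s + 1) → Fin m => key x ≤ key (x ∘ σ) with hO
  set Q := Finset.univ.filter fun x : Fin (s + 1) → Fin m => x ∘ σ = x with hQ
  set U := Finset.univ.filter fun x : Fin (s + 1) → Fin m => key (x ∘ σ) < key x with hU
  set W := Finset.univ.filter fun x : Fin (s + 1) → Fin m => key x < key (x ∘ σ) with hW
  have hUW : U.card = W.card := Finset.card_nbij' (fun x => x ∘ σ) (fun x => x ∘ σ)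
    (fun x hx => by simp_all [hU, hW, Function.comp_assoc])
    (fun x hx => by simp_all [hU, hW, Function.comp_assoc])
    (fun x _ => by simp [Function.comp_assoc, hsx])
    (fun x _ => by simp [Function.comp_assoc, hsx])
  have hOU : O.card + U.card = m ^ (s + 1) := by
    have := Finset.card_filter_add_card_filter_not (s := Finset.univ)
      (p := fun x : Fin (s + 1) → Fin m => key x ≤ key (x ∘ σ))
    simpa [hO, hU, Finset.card_univ] using this
  have hOW : O.card = Q.card + W.card := by
    rw [← Finset.card_union_of_disjoint]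
    · congr 1
      ext x
      simp only [hO, hQ, hW, Finset.mem_union, Finset.mem_filter, Finset.mem_univ, true_and,
        ← key_fix]
      omega
    · rw [Finset.disjoint_filter]
      intro x _ h
      rw [← key_fix] at h
      omega
  -- fixed vectors are determined on `O`
  set P := LinearMap.ker (nil g)
  have hfix : ∀ v : P, g (v : TV F m (s + 1)) = v := fun v => sub_eq_zero.1 (LinearMap.mem_ker.1 v.2)
  set R : P →ₗ[F] (O → F) := LinearMap.funLeft F F (fun x : O => x.1) ∘ₗ P.subtype
  have hR : Function.Injective R := by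
    rw [← LinearMap.ker_eq_bot, LinearMap.ker_eq_bot']
    intro v hv
    have hvO : ∀ x ∈ O, (v : TV F m (s + 1)) x = 0 := fun x hx => congrFun hv ⟨x, hx⟩
    refine Subtype.ext (funext fun x => ?_)
    by_cases hx : x ∈ O
    · exact hvO x hx
    rw [← hfix v, kronE_permE_apply]
    refine Finset.sum_eq_zero fun y _ => ?_
    by_cases hy : ∃ i ∈ Mv, x i ≠ y i
    · rw [show kroneckerPow (fun i => (e i).val) x y = 0 from hK x y hy, zero_mul]
    · push Not at hy
      rw [hvO (y ∘ σ), mul_zero]
      have h1 : key y = key x := (key_eq _ _).2 fun i hi => (hy i hi).symm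
      have h2 : key (y ∘ σ) = key (x ∘ σ) := (key_eq _ _).2 fun i hi => (hy (σ i) (by
        simp only [hMv, Finset.mem_filter, Finset.mem_univ, true_and] at hi ⊢
        rw [hss]; exact Ne.symm hi)).symm
      simp only [hO, Finset.mem_filter, Finset.mem_univ, true_and, Function.comp_assoc, hsx] at hx ⊢
      omega
  have hker := LinearMap.finrank_le_finrank_of_injective hR
  rw [finrank_pi, Fintype.card_coe] at hker
  have hsum := LinearMap.finrank_range_add_finrank_ker (nil g)
  rw [finrank_pi, Fintype.card_fun, Fintype.card_fin, Fintype.card_fin] at hsum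
  change _ + finrank F P = _ at hsum
  -- counting the fixed points
  have hQ1 : ∀ i, σ i ≠ i → Q.card * m ≤ m ^ (s + 1) := by
    intro i hi
    have := Finset.card_le_card_of_injOn (s := Q ×ˢ (Finset.univ : Finset (Fin m)))
      (t := (Finset.univ : Finset (Fin (s + 1) → Fin m))) (fun p => update p.1 i p.2)
      (fun _ _ => Finset.mem_coe.2 (Finset.mem_univ _)) (by
        rintro ⟨x, a⟩ hx ⟨x', a'⟩ hx' h
        simp only [Finset.coe_product, Set.mem_prod, Finset.mem_coe, hQ, Finset.mem_filter,
          Finset.mem_univ, true_and, and_true] at hx hx'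
        simp only at h
        refine Prod.ext (funext fun l => ?_) (by simpa using congrFun h i)
        rcases eq_or_ne l i with rfl | hl
        · refine (congrFun hx l).symm.trans (Eq.trans ?_ (congrFun hx' l))
          simpa [hi] using congrFun h (σ l)
        · simpa [hl] using congrFun h l)
    simpa [Finset.card_product, Fintype.card_fun] using this
  obtain ⟨a, ha⟩ : ∃ a, σ a ≠ a := by
    by_contra! h; exact hσ1 (Equiv.ext h)
  have hQa := hQ1 a ha
  have hpow : m ^ (s + 1) = m * m ^ s := pow_succ' m s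
  have hQle : Q.card ≤ m ^ s := Nat.le_of_mul_le_mul_left (by rw [mul_comm, ← hpow]; exact hQa)
    (show 0 < m by omega)
  have hUle : U.card ≤ m ^ s := by omega
  have hpos : 0 < m ^ s := pow_pos (by omega) s
  have hm3 : m = 3 := by nlinarith
  -- one pair
  have hone : σ = Equiv.swap a (σ a) := by
    by_contra hne
    obtain ⟨l, hl⟩ : ∃ l, σ l ≠ Equiv.swap a (σ a) l := by
      by_contra! h; exact hne (Equiv.ext h)
    have hla : l ≠ a := fun h => hl (by rw [h, Equiv.swap_apply_left])
    have hlb : l ≠ σ a := fun h => hl (by rw [h, Equiv.swap_apply_right, hss])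
    rw [Equiv.swap_apply_of_ne_of_ne hla hlb] at hl
    have h9 : Q.card * (m * m) ≤ m ^ (s + 1) := by
      have := Finset.card_le_card_of_injOn
        (s := Q ×ˢ ((Finset.univ : Finset (Fin m)) ×ˢ (Finset.univ : Finset (Fin m))))
        (t := (Finset.univ : Finset (Fin (s + 1) → Fin m)))
        (fun p => update (update p.1 a p.2.1) l p.2.2)
        (fun _ _ => Finset.mem_coe.2 (Finset.mem_univ _)) (by
          rintro ⟨x, c, d⟩ hx ⟨x', c', d'⟩ hx' h
          simp only [Finset.coe_product, Set.mem_prod, Finset.mem_coe, hQ, Finset.mem_filter,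
            Finset.mem_univ, true_and, and_true] at hx hx'
          simp only at h
          refine Prod.ext (funext fun i => ?_) (Prod.ext
            (by simpa [hla.symm] using congrFun h a) (by simpa using congrFun h l))
          have hla' : σ l ≠ a := fun h => hlb (by rw [← h, hss])
          rcases eq_or_ne i a with rfl | hia
          · refine (congrFun hx i).symm.trans (Eq.trans ?_ (congrFun hx' i))
            simpa [ha, hlb.symm] using congrFun h (σ i)
          rcases eq_or_ne i l with rfl | hil
          · refine (congrFun hx i).symm.trans (Eq.trans ?_ (congrFun hx' i))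
            simpa [hl, hla'] using congrFun h (σ i)
          · simpa [hia, hil] using congrFun h i)
      simpa [Finset.card_product, Fintype.card_fun] using this
    subst hm3
    omega
  refine ⟨hm3, ⟨a, σ a, ha.symm, hone⟩, ?_⟩
  -- the restriction to `O` is onto
  have hsurj : Function.Surjective R := by
    rw [← LinearMap.range_eq_top]
    refine Submodule.eq_top_of_finrank_eq ?_
    rw [LinearMap.finrank_range_of_inj hR, finrank_pi, Fintype.card_coe]
    subst hm3
    omega
  have hQO : ∀ z, z ∘ σ = z → z ∈ O := fun z hz => by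
    simp [hO, hz]
  have hKQ : ∀ z u : Fin (s + 1) → Fin m, z ∘ σ = z → u ∘ σ = u →
      K z u = if z = u then 1 else 0 := by
    intro z u hz hu
    obtain ⟨v, hv⟩ := hsurj (Pi.single ⟨u, hQO u hu⟩ 1)
    have hvO : ∀ x, ∀ hx : x ∈ O, (v : TV F m (s + 1)) x = if x = u then 1 else 0 := fun x hx => by
      have := congrFun hv ⟨x, hx⟩
      simp [R, Pi.single_apply, Subtype.ext_iff] at this
      exact this
    rw [← hvO z (hQO z hz), ← hfix v, kronE_permE_apply, Fintype.sum_eq_single u]
    · rw [hu, hvO u (hQO u hu), if_pos rfl, mul_one]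
    · intro y hy
      by_cases hyz : ∃ i ∈ Mv, z i ≠ y i
      · rw [show kroneckerPow (fun i => (e i).val) z y = 0 from hK z y hyz, zero_mul]
      · push Not at hyz
        have hy' : y ∘ σ = y := (key_fix y).1 ((key_eq _ _).2 fun i hi => by
          have hi' : σ i ∈ Mv := by
            simp only [hMv, Finset.mem_filter, Finset.mem_univ, true_and] at hi ⊢
            rw [hss]; exact Ne.symm hi
          rw [Function.comp_apply, ← hyz i hi, ← hyz (σ i) hi']
          exact (congrFun hz i).symm)
        rw [hy', hvO y (hQO y hy'), if_neg hy, mul_zero]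
  have hK1 : K = 1 := by
    ext x y
    by_cases hxy : ∃ i ∈ Mv, x i ≠ y i
    · rw [hK x y hxy, one_apply_ne]
      obtain ⟨i, -, hi⟩ := hxy
      exact fun h => hi (congrFun h i)
    push Not at hxy
    have hfixed : ∀ x : Fin (s + 1) → Fin m,
        Mv.piecewise (fun _ => o) x ∘ σ = Mv.piecewise (fun _ => o) x := fun x => by
      funext i
      by_cases hi : i ∈ Mv
      · have hi' : σ i ∈ Mv := by
          simp only [hMv, Finset.mem_filter, Finset.mem_univ, true_and] at hi ⊢
          rw [hss]; exact Ne.symm hi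
        simp [hi, hi']
      · have : σ i = i := by simpa [hMv] using hi
        simp [this, hi]
    have h1 := hKQ _ _ (hfixed x) (hfixed y)
    have h2 : K x y = K (Mv.piecewise (fun _ => o) x) (Mv.piecewise (fun _ => o) y) := by
      simp only [K, kroneckerPow, Matrix.of_apply]
      refine Finset.prod_congr rfl fun i _ => ?_
      by_cases hi : i ∈ Mv
      · obtain ⟨c, hc⟩ := he i (Finset.mem_filter.1 hi).2
        simp [hi, hc, hxy i hi]
      · simp [hi]
    rw [h2, h1, one_apply]
    congr 1
    rw [eq_iff_iff]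
    refine ⟨fun h => funext fun i => ?_, fun h => by rw [h]⟩
    by_cases hi : i ∈ Mv
    · exact hxy i hi
    · simpa [hi] using congrFun h i
  refine LinearEquiv.ext fun v => ?_
  change kronE e (permE σ v) = _
  rw [kronE_apply, show kroneckerPow (fun i => (e i).val) = 1 from hK1, one_mulVec]

/-- The classification of monomial elements of small rank with `(g - 1)² = 0`. -/
theorem mono_classify (hm : 3 ≤ m) {g : TV F m (s + 1) ≃ₗ[F] TV F m (s + 1)}
    (hg : g ∈ monoGroup F m (s + 1)) (h2 : ∀ v, nil g (nil g v) = 0) (hne : g ≠ 1)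
    (hrk : finrank F (LinearMap.range (nil g)) ≤ m ^ s) :
    (∃ k w, w ≠ 0 ∧ LinearMap.range (nil g) = smemb k w) ∨ IsSwap g := by
  obtain ⟨σ, gs, rfl⟩ := hg
  by_cases hσ : σ = 1
  · subst hσ
    rw [map_one, mul_one] at *
    exact Or.inl (kron_range hm s gs h2 hne hrk)
  right
  set g := kronE gs * permE σ with hgdef
  have hsum : ∀ v, g v + g.symm v = (2 : F) • v := fun v => by
    have := congrArg g.symm (h2 v)
    simp only [nil_apply, map_sub, map_zero, LinearEquiv.symm_apply_apply] at this
    rw [two_smul, ← sub_eq_zero, ← this]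
    abel
  obtain ⟨i, hi⟩ : ∃ i, σ i ≠ i := by
    by_contra! h; exact hσ (Equiv.ext h)
  -- characteristic two
  have htwo : (2 : F) = 0 := by
    by_contra htwo
    have hi' : σ⁻¹ i ≠ i := fun h => hi (by conv_lhs => rw [← h]; simp)
    let o : Fin m := ⟨0, by omega⟩
    let x₀ : Fin (s + 1) → Fin m → F := fun _ => Pi.single o 1
    set p := (gs i).val *ᵥ Pi.single o (1 : F)
    set r := ((gs (σ i))⁻¹).val *ᵥ Pi.single o (1 : F)
    obtain ⟨z, hz⟩ : ∃ z, z ∉ Submodule.span F ({p, r} : Set (Fin m → F)) := by
      classical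
      by_contra! h
      have h1 := finrank_span_finset_le_card (R := F) (M := Fin m → F) {p, r}
      rw [Finset.coe_pair, Set.finrank,
        show Submodule.span F ({p, r} : Set (Fin m → F)) = ⊤ from eq_top_iff.2 fun x _ => h x,
        finrank_top, finrank_pi, Fintype.card_fin] at h1
      have := h1.trans Finset.card_le_two
      omega
    obtain ⟨χ, hχ, hχ'⟩ := exists_covec hz
    set x := update x₀ i z
    set φ : Fin (s + 1) → Fin m → F := update (fun _ => Pi.single o 1) i χ
    have hg' : g.symm (pv x) = pv fun l => ((gs (σ l))⁻¹).val *ᵥ x (σ l) := by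
      rw [LinearEquiv.symm_apply_eq, hgdef, kronE_permE_pv]
      congr 1
      funext l
      rw [show σ (σ⁻¹ l) = l by simp, mulVec_mulVec, ← Units.val_mul, mul_inv_cancel, Units.val_one,
        one_mulVec]
    have h := congrArg (pv φ ⬝ᵥ ·) (hsum (pv x))
    simp only [dotProduct_add, dotProduct_smul, hg'] at h
    rw [hgdef, kronE_permE_pv, pv_dot_pv, pv_dot_pv, pv_dot_pv,
      Finset.prod_eq_zero (Finset.mem_univ i) (by
        simp only [φ, x, update_self, update_of_ne hi']
        exact hχ' _ (Submodule.subset_span (by simp [p, x₀]))),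
      Finset.prod_eq_zero (Finset.mem_univ i) (by
        simp only [φ, x, update_self, update_of_ne hi]
        exact hχ' _ (Submodule.subset_span (by simp [r, x₀]))),
      Finset.prod_eq_one fun l _ => by
        rcases eq_or_ne l i with rfl | hl
        · simp [φ, x, hχ]
        · simp [φ, x, x₀, hl],
      add_zero, smul_eq_mul, mul_one] at h
    exact htwo h.symm
  have hinv : g * g = 1 := LinearEquiv.ext fun v => by
    change g (g v) = v
    have h1 := hsum (g v)
    rw [LinearEquiv.symm_apply_apply, htwo, zero_smul, add_eq_zero_iff_eq_neg] at h1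
    rw [h1]
    have : (-1 : F) = 1 := by rw [neg_eq_iff_add_eq_zero, one_add_one_eq_two, htwo]
    rw [← neg_one_smul F v, this, one_smul]
  obtain ⟨hσσ, hsc⟩ := eq_one_of_kronE_mul_permE hm (gs := gs * fun l => gs (σ⁻¹ l)) (σ := σ * σ) (by
    rw [map_mul, map_mul, ← hinv, hgdef, mul_assoc (kronE gs) (permE σ) (kronE gs * permE σ),
      ← mul_assoc (permE σ) (kronE gs) (permE σ), permE_mul_kronE]
    simp only [mul_assoc])
  have hσi : σ⁻¹ = σ := inv_eq_of_mul_eq_one_left hσσ
  have hss : ∀ l, σ (σ l) = l := fun l => Equiv.congr_fun hσσ l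
  -- normalise
  let δ : Fin (s + 1) → GL (Fin m) F := fun l => if l < σ l then gs l else 1
  set e := δ⁻¹ * gs * fun l => δ (σ l) with he
  have hconj : (kronE δ)⁻¹ * g * kronE δ = kronE e * permE σ := by
    rw [hgdef, mul_assoc, mul_assoc, permE_mul_kronE, hσi, ← map_inv, he, map_mul, map_mul]
    simp only [mul_assoc]
  have hesc : ∀ l, σ l ≠ l → ∃ c : F, (e l).val = c • 1 := by
    intro l hl
    rcases lt_or_gt_of_ne hl with h | h
    · obtain ⟨c, hc⟩ := hsc l
      refine ⟨c, ?_⟩
      rw [← hc]
      simp [he, δ, h, hss, h.le, hσi, not_lt.2 h.le]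
    · refine ⟨1, ?_⟩
      simp [he, δ, h, hss, not_lt.2 h.le]
  have hrk' : finrank F (LinearMap.range (nil (kronE e * permE σ))) ≤ m ^ s := by
    rw [← hconj]
    have : nil ((kronE δ)⁻¹ * g * kronE δ) = (kronE δ).symm.toLinearMap ∘ₗ nil g ∘ₗ
        (kronE δ).toLinearMap := LinearMap.ext fun v => by
      change (kronE δ).symm (g (kronE δ v)) - v = (kronE δ).symm (g (kronE δ v) - kronE δ v)
      rw [map_sub, LinearEquiv.symm_apply_apply]
    rw [this, LinearMap.range_comp, LinearMap.range_comp_of_range_eq_top _ (kronE δ).range,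
      LinearEquiv.finrank_map_eq]
    exact hrk
  obtain ⟨hm3, ⟨a, b, hab, rfl⟩, hperm⟩ := perm_involution hm hσσ hσ hesc hrk'
  refine ⟨hm3, δ, a, b, hab, ?_⟩
  rw [← hperm, ← hconj]
  group

end CfsgLib.WreathTensor14
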