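import Cfsg.Agent.Eq.Def_GeometricClasses
import Cfsg.Agent.TensorMax.Intersection
import Cfsg.Agent.Aschbacher.TensorPower

/-!
Coordinates for the `t`-th tensor power of `F^m`: pure vectors, tensor products of matrices,
permutations of the factors and the splitting off of one factor.
-/

set_option autoImplicit false

namespace CfsgLib.WreathTensor14

open Matrix
open CfsgLib.Aschbacher (kroneckerPow kroneckerPow_mul kroneckerPow_one kroneckerPow_smul)
open CfsgLib.TensorMax (InM rootMap memb exists_covec pure_eq_zero_iff)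

variable {F : Type*} [Field F] {m t s : ℕ}

/-- The tensor power, in coordinates. -/
abbrev TV (F : Type*) (m t : ℕ) := (Fin t → Fin m) → F

/-- The pure tensor `x 0 ⊗ x 1 ⊗ ⋯`. -/
def pv (x : Fin t → Fin m → F) : TV F m t := fun p => ∏ i, x i (p i)

lemma pv_single (p : Fin t → Fin m) :
    pv (fun i => Pi.single (p i) (1 : F)) = Pi.single p 1 := by
  funext q
  rcases eq_or_ne q p with rfl | h
  · simp [pv]
  · obtain ⟨i, hi⟩ := Function.ne_iff.1 h
    rw [Pi.single_eq_of_ne h]
    exact Finset.prod_eq_zero (Finset.mem_univ i) (Pi.single_eq_of_ne hi _)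

lemma linearMap_ext_pv {W : Type*} [AddCommMonoid W] [Module F W] {f g : TV F m t →ₗ[F] W}
    (h : ∀ x, f (pv x) = g (pv x)) : f = g :=
  LinearMap.pi_ext' fun p => LinearMap.ext_ring (by
    simpa [← pv_single] using h fun i => Pi.single (p i) 1)

lemma linearEquiv_ext_pv {W : Type*} [AddCommMonoid W] [Module F W] {f g : TV F m t ≃ₗ[F] W}
    (h : ∀ x, f (pv x) = g (pv x)) : f = g :=
  LinearEquiv.toLinearMap_injective (linearMap_ext_pv h)

lemma pv_ne_zero {x : Fin t → Fin m → F} (h : ∀ i, x i ≠ 0) : pv x ≠ 0 := by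
  choose p hp using fun i => Function.ne_iff.1 (h i)
  exact Function.ne_iff.2 ⟨p, Finset.prod_ne_zero_iff.2 fun i _ => hp i⟩

lemma kroneckerPow_mulVec_pv (gs : Fin t → Matrix (Fin m) (Fin m) F) (x : Fin t → Fin m → F) :
    kroneckerPow gs *ᵥ pv x = pv fun i => gs i *ᵥ x i := by
  funext p
  simp only [mulVec, dotProduct, pv, kroneckerPow, Matrix.of_apply, ← Finset.prod_mul_distrib]
  exact (Fintype.prod_sum fun i a => gs i (p i) a * x i a).symm

/-- Matrices acting on vectors. -/
def toE {α : Type} [Fintype α] [DecidableEq α] : GL α F →* ((α → F) ≃ₗ[F] (α → F)) :=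
  (LinearMap.GeneralLinearGroup.generalLinearEquiv F (α → F)).toMonoidHom.comp
    Matrix.GeneralLinearGroup.toLin.toMonoidHom

@[simp] lemma toE_apply {α : Type} [Fintype α] [DecidableEq α] (g : GL α F) (v : α → F) :
    toE g v = (g : Matrix α α F) *ᵥ v := rfl

lemma toE_injective {α : Type} [Fintype α] [DecidableEq α] :
    Function.Injective (toE (F := F) (α := α)) := fun g h hgh =>
  Units.ext (Matrix.ext_of_mulVec_single fun i => by rw [← toE_apply, hgh, toE_apply])

/-- The tensor product of invertible matrices. -/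
def krGL : (Fin t → GL (Fin m) F) →* GL (Fin t → Fin m) F where
  toFun gs := ⟨kroneckerPow fun i => (gs i : Matrix (Fin m) (Fin m) F),
    kroneckerPow fun i => ((gs i)⁻¹ : GL (Fin m) F),
    by rw [kroneckerPow_mul]; simp [kroneckerPow_one],
    by rw [kroneckerPow_mul]; simp [kroneckerPow_one]⟩
  map_one' := Units.ext (by simp [kroneckerPow_one])
  map_mul' a b := Units.ext (by simp [kroneckerPow_mul])

lemma coe_krGL (gs : Fin t → GL (Fin m) F) :
    (krGL gs : Matrix (Fin t → Fin m) (Fin t → Fin m) F) = kroneckerPow fun i => (gs i).val := rfl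

/-- The tensor product of invertible maps. -/
def kronE : (Fin t → GL (Fin m) F) →* (TV F m t ≃ₗ[F] TV F m t) := toE.comp krGL

lemma kronE_pv (gs : Fin t → GL (Fin m) F) (x : Fin t → Fin m → F) :
    kronE gs (pv x) = pv fun i => (gs i : Matrix (Fin m) (Fin m) F) *ᵥ x i :=
  kroneckerPow_mulVec_pv _ x

lemma kronE_apply (gs : Fin t → GL (Fin m) F) (v : TV F m t) :
    kronE gs v = kroneckerPow (fun i => (gs i).val) *ᵥ v := rfl

/-- The permutation of the factors. -/
def permE : Equiv.Perm (Fin t) →* (TV F m t ≃ₗ[F] TV F m t) where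
  toFun σ :=
    { toFun := fun v p => v (p ∘ σ)
      invFun := fun v p => v (p ∘ σ.symm)
      map_add' := fun u v => rfl
      map_smul' := fun c v => rfl
      left_inv := fun v => by funext p; simp [Function.comp_assoc]
      right_inv := fun v => by funext p; simp [Function.comp_assoc] }
  map_one' := LinearEquiv.ext fun v => rfl
  map_mul' σ τ := LinearEquiv.ext fun v => rfl

@[simp] lemma permE_apply (σ : Equiv.Perm (Fin t)) (v : TV F m t) (p : Fin t → Fin m) :
    permE σ v p = v (p ∘ σ) := rfl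

lemma permE_pv (σ : Equiv.Perm (Fin t)) (x : Fin t → Fin m → F) :
    permE σ (pv x) = pv fun i => x (σ⁻¹ i) := by
  funext p
  rw [permE_apply]
  exact Fintype.prod_equiv σ _ _ fun i => by simp [Equiv.Perm.inv_def]

lemma permE_mul_kronE (σ : Equiv.Perm (Fin t)) (gs : Fin t → GL (Fin m) F) :
    permE σ * kronE gs = kronE (fun i => gs (σ⁻¹ i)) * permE σ :=
  linearEquiv_ext_pv fun x => by simp [kronE_pv, permE_pv]

/-- Tensor products of matrices composed with permutations of the factors. -/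
def monoGroup (F : Type*) [Field F] (m t : ℕ) : Subgroup (TV F m t ≃ₗ[F] TV F m t) where
  carrier := {g | ∃ (σ : Equiv.Perm (Fin t)) (gs : Fin t → GL (Fin m) F), g = kronE gs * permE σ}
  one_mem' := ⟨1, 1, by simp⟩
  mul_mem' := by
    rintro _ _ ⟨σ, gs, rfl⟩ ⟨τ, hs, rfl⟩
    refine ⟨σ * τ, gs * (fun i => hs (σ⁻¹ i)), ?_⟩
    rw [map_mul, map_mul, mul_assoc, ← mul_assoc (permE σ), permE_mul_kronE]
    simp only [mul_assoc]
  inv_mem' := by
    rintro _ ⟨σ, gs, rfl⟩
    refine ⟨σ⁻¹, fun i => (gs (σ i))⁻¹, ?_⟩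
    rw [_root_.mul_inv_rev, ← map_inv, ← map_inv, permE_mul_kronE]
    simp

lemma kronE_mem_mono (gs : Fin t → GL (Fin m) F) : kronE gs ∈ monoGroup F m t :=
  ⟨1, gs, by simp⟩

lemma permE_mem_mono (σ : Equiv.Perm (Fin t)) : permE σ ∈ monoGroup F m t :=
  ⟨σ, 1, by simp⟩

lemma map_toE_tensorWreathStandard (m t : ℕ) :
    (Cfsg.Geo.tensorWreathStandard m t F).map toE = monoGroup F m t := by
  rw [Cfsg.Geo.tensorWreathStandard, MonoidHom.map_closure]
  refine le_antisymm ((Subgroup.closure_le _).2 ?_) ?_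
  · rintro _ ⟨g, ⟨gs, hg⟩ | ⟨σ, hg⟩, rfl⟩
    · rw [show g = krGL gs from Units.ext (Matrix.ext hg)]
      exact kronE_mem_mono gs
    · have : toE g = permE (F := F) (m := m) σ := LinearEquiv.ext fun v => funext fun p => by
        simp [mulVec, dotProduct, hg]
      rw [this]
      exact permE_mem_mono σ
  · rintro _ ⟨σ, gs, rfl⟩
    refine Subgroup.mul_mem _ (Subgroup.subset_closure ⟨krGL gs, Or.inl ⟨gs, fun x y => rfl⟩, rfl⟩)
      (Subgroup.subset_closure ?_)
    let P : Matrix (Fin t → Fin m) (Fin t → Fin m) F := LinearMap.toMatrix' (permE σ).toLinearMap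
    have hP : IsUnit P := by
      refine IsUnit.of_mul_eq_one (LinearMap.toMatrix' (permE σ⁻¹).toLinearMap) ?_
      rw [← LinearMap.toMatrix'_comp]
      convert LinearMap.toMatrix'_id
      refine LinearMap.ext fun v => ?_
      change permE σ (permE σ⁻¹ v) = v
      rw [← LinearEquiv.mul_apply, ← map_mul, mul_inv_cancel, map_one]
      rfl
    refine ⟨hP.unit, Or.inr ⟨σ, fun x y => ?_⟩, LinearEquiv.ext fun v => ?_⟩
    · simp [P, LinearMap.toMatrix'_apply, Pi.single_apply, eq_comm]
    · rw [toE_apply, IsUnit.unit_spec, LinearMap.toMatrix'_mulVec]; rfl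

/-- `1 + N` lies in `M`. -/
def InV (M : Subgroup (TV F m t ≃ₗ[F] TV F m t)) (N : TV F m t →ₗ[F] TV F m t) : Prop :=
  ∃ e ∈ M, ∀ v, e v = v + N v

/-- `M` contains the tensor products of matrices of determinant one and the factor permutations
of order dividing three. -/
structure Base (M : Subgroup (TV F m t ≃ₗ[F] TV F m t)) : Prop where
  kron_mem : ∀ gs : Fin t → GL (Fin m) F, (∀ i, (gs i : Matrix (Fin m) (Fin m) F).det = 1) →
    kronE gs ∈ M
  perm_mem : ∀ σ : Equiv.Perm (Fin t), σ ^ 3 = 1 → permE σ ∈ M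

/-- Splitting off the factor `k`. -/
def slot (k : Fin (s + 1)) : TV F m (s + 1) ≃ₗ[F] Matrix (Fin s → Fin m) (Fin m) F where
  toFun v := Matrix.of fun p a => v (Fin.insertNth (α := fun _ => Fin m) k a p)
  invFun X := fun q => X (Fin.removeNth k q) (q k)
  map_add' u v := rfl
  map_smul' c v := rfl
  left_inv v := by funext q; simp
  right_inv X := by ext p a; simp

lemma slot_apply (k : Fin (s + 1)) (v : TV F m (s + 1)) (p : Fin s → Fin m) (a : Fin m) :
    slot k v p a = v (Fin.insertNth (α := fun _ => Fin m) k a p) := rfl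

lemma slot_symm_apply (k : Fin (s + 1)) (X : Matrix (Fin s → Fin m) (Fin m) F)
    (q : Fin (s + 1) → Fin m) : (slot k).symm X q = X (Fin.removeNth k q) (q k) := rfl

lemma slot_pv (k : Fin (s + 1)) (x : Fin (s + 1) → Fin m → F) :
    slot k (pv x) = TensorMax.pure (pv (Fin.removeNth k x)) (x k) := by
  ext p a
  rw [slot_apply, pv, Fin.prod_univ_succAbove _ k, TensorMax.pure, vecMulVec_apply, pv]
  simp [Fin.removeNth, mul_comm]

lemma slot_pv_insertNth (k : Fin (s + 1)) (w : Fin m → F) (x : Fin s → Fin m → F) :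
    slot k (pv (Fin.insertNth (α := fun _ => Fin m → F) k w x)) = TensorMax.pure (pv x) w := by
  rw [slot_pv]; simp

/-- The conjugation to slot coordinates. -/
def slotConj (k : Fin (s + 1)) : (TV F m (s + 1) ≃ₗ[F] TV F m (s + 1)) →*
    (Matrix (Fin s → Fin m) (Fin m) F ≃ₗ[F] Matrix (Fin s → Fin m) (Fin m) F) where
  toFun g := ((slot k).symm.trans g).trans (slot k)
  map_one' := LinearEquiv.ext fun X => by simp
  map_mul' g h := LinearEquiv.ext fun X => by simp

@[simp] lemma slotConj_apply (k : Fin (s + 1)) (g : TV F m (s + 1) ≃ₗ[F] TV F m (s + 1))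
    (X : Matrix (Fin s → Fin m) (Fin m) F) : slotConj k g X = slot k (g ((slot k).symm X)) := rfl

/-- A group in slot coordinates. -/
def slotGroup (M : Subgroup (TV F m (s + 1) ≃ₗ[F] TV F m (s + 1))) (k : Fin (s + 1)) :
    Subgroup (Matrix (Fin s → Fin m) (Fin m) F ≃ₗ[F] Matrix (Fin s → Fin m) (Fin m) F) :=
  M.map (slotConj k)

lemma inM_slotGroup_iff {M : Subgroup (TV F m (s + 1) ≃ₗ[F] TV F m (s + 1))} {k : Fin (s + 1)}
    {N : Matrix (Fin s → Fin m) (Fin m) F →ₗ[F] Matrix (Fin s → Fin m) (Fin m) F} :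
    InM (slotGroup M k) N ↔
      InV M ((slot k).symm.toLinearMap ∘ₗ N ∘ₗ (slot k).toLinearMap) := by
  constructor
  · rintro ⟨_, ⟨g, hg, rfl⟩, h⟩
    refine ⟨g, hg, fun v => (slot k).injective ?_⟩
    simpa using h (slot k v)
  · rintro ⟨g, hg, h⟩
    exact ⟨slotConj k g, ⟨g, hg, rfl⟩, fun X => by simp [h]⟩

lemma pureMul_slot (k : Fin (s + 1)) (B : Fin s → Matrix (Fin m) (Fin m) F) (w ψ : Fin m → F)
    (v : TV F m (s + 1)) :
    (slot k).symm (rootMap (kroneckerPow B) w ψ (slot k v))
      = kroneckerPow (Fin.insertNth (α := fun _ => Matrix (Fin m) (Fin m) F) k (vecMulVec w ψ) B)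
          *ᵥ v := by
  have : (slot k).symm.toLinearMap ∘ₗ rootMap (kroneckerPow B) w ψ ∘ₗ (slot k).toLinearMap
      = Matrix.mulVecLin (kroneckerPow
        (Fin.insertNth (α := fun _ => Matrix (Fin m) (Fin m) F) k (vecMulVec w ψ) B)) := by
    refine linearMap_ext_pv fun x => (slot k).injective ?_
    simp only [LinearMap.comp_apply, LinearEquiv.coe_coe, LinearEquiv.apply_symm_apply,
      Matrix.mulVecLin_apply, kroneckerPow_mulVec_pv, slot_pv, TensorMax.rootMap_apply,
      TensorMax.pure_mulVec, mulVec_smul]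
    have hrest : (Fin.removeNth k fun i =>
        (Fin.insertNth (α := fun _ => Matrix (Fin m) (Fin m) F) k (vecMulVec w ψ) B i) *ᵥ x i)
        = fun i => B i *ᵥ x (k.succAbove i) := funext fun i => by simp [Fin.removeNth_apply]
    ext p a
    simp [hrest, TensorMax.pure, vecMulVec_apply, vecMulVec_mulVec, dotProduct_comm,
      Fin.removeNth_apply]
    ring
  exact LinearMap.congr_fun this v

lemma kronE_insertNth_one (k : Fin (s + 1)) (b : GL (Fin m) F)
    (X : Matrix (Fin s → Fin m) (Fin m) F) :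
    slotConj k (kronE (Fin.insertNth (α := fun _ => GL (Fin m) F) k b 1)) X
      = X * (b : Matrix (Fin m) (Fin m) F)ᵀ := by
  obtain ⟨v, rfl⟩ := (slot k).surjective X
  rw [slotConj_apply, LinearEquiv.symm_apply_apply]
  have : ((kronE (Fin.insertNth (α := fun _ => GL (Fin m) F) k b 1)).trans (slot k)).toLinearMap
      = mulRightLinearMap (Fin s → Fin m) F (b : Matrix (Fin m) (Fin m) F)ᵀ ∘ₗ
        (slot k).toLinearMap := by
    refine linearMap_ext_pv fun x => ?_
    have hrest : (Fin.removeNth k fun i =>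
        ((Fin.insertNth (α := fun _ => GL (Fin m) F) k b 1 i : GL (Fin m) F) :
          Matrix (Fin m) (Fin m) F) *ᵥ x i) = Fin.removeNth k x :=
      funext fun i => by simp [Fin.removeNth_apply]
    simp only [LinearEquiv.coe_coe, LinearEquiv.trans_apply, LinearMap.comp_apply,
      mulRightLinearMap_apply, kronE_pv, slot_pv, TensorMax.pure, vecMulVec_mul, vecMul_transpose,
      hrest, Fin.insertNth_apply_same]
  exact LinearMap.congr_fun this v

lemma exists_det_one_GL {b : Matrix (Fin m) (Fin m) F} (hb : b.det = 1) :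
    ∃ g : GL (Fin m) F, (g : Matrix (Fin m) (Fin m) F) = b :=
  ⟨Matrix.GeneralLinearGroup.mkOfDetNeZero b (by simp [hb]), rfl⟩

/-- Only the right special linear factor is needed. -/
def RightSL {ι κ : Type} [Fintype ι] [DecidableEq ι] [Fintype κ] [DecidableEq κ]
    (M : Subgroup (Matrix ι κ F ≃ₗ[F] Matrix ι κ F)) : Prop :=
  ∀ b : Matrix κ κ F, b.det = 1 → ∃ e ∈ M, ∀ X, e X = X * bᵀ

lemma Base.rightSL {M : Subgroup (TV F m (s + 1) ≃ₗ[F] TV F m (s + 1))} (hM : Base M)
    (k : Fin (s + 1)) : RightSL (slotGroup M k) := by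
  intro b hb
  obtain ⟨g, rfl⟩ := exists_det_one_GL hb
  refine ⟨_, Subgroup.mem_map_of_mem _ (hM.kron_mem _ ?_), kronE_insertNth_one k g⟩
  intro i
  rcases Fin.eq_self_or_eq_succAbove k i with rfl | ⟨j, rfl⟩ <;> simp [hb]

/-- All coefficients are scalar. -/
def OnlyScal (M : Subgroup (TV F m (s + 1) ≃ₗ[F] TV F m (s + 1))) : Prop :=
  ∀ k, TensorMax.OnlyScalars (slotGroup M k)

end CfsgLib.WreathTensor14
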