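import Cfsg.Agent.WreathTensor14.Basic

/-!
A space of matrices on a tensor power invariant under the special linear groups of the factors,
and containing a non-scalar, contains a non-scalar product of matrix units and identities.
-/

set_option autoImplicit false

namespace CfsgLib.WreathTensor14

open Matrix Function
open CfsgLib.Aschbacher (kroneckerPow kroneckerPow_mul kroneckerPow_one kroneckerPow_transpose)

variable {F : Type*} [Field F] {m t : ℕ}

/-- A matrix in one factor. -/
def emb (i : Fin t) (A : Matrix (Fin m) (Fin m) F) :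
    Matrix (Fin t → Fin m) (Fin t → Fin m) F :=
  kroneckerPow (Pi.mulSingle i A)

lemma emb_mul_apply (i : Fin t) (A : Matrix (Fin m) (Fin m) F)
    (τ : Matrix (Fin t → Fin m) (Fin t → Fin m) F) (x y : Fin t → Fin m) :
    (emb i A * τ) x y = ∑ u, A (x i) u * τ (update x i u) y := by
  classical
  rw [Matrix.mul_apply, ← Finset.sum_subset
    (Finset.subset_univ (Finset.univ.image fun u => update x i u)),
    Finset.sum_image fun a _ b _ h => update_injective x i h]
  · refine Finset.sum_congr rfl fun u _ => ?_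
    rw [emb, kroneckerPow, Matrix.of_apply,
      Fintype.prod_eq_single i fun l hl => by simp [hl]]
    simp
  · intro z _ hz
    refine mul_eq_zero_of_left ?_ _
    obtain ⟨l, hl⟩ : ∃ l, z l ≠ update x i (z i) l := Function.ne_iff.1 fun h =>
      hz (Finset.mem_image.2 ⟨z i, Finset.mem_univ _, h.symm⟩)
    have hli : l ≠ i := fun h => hl (by subst h; simp)
    rw [update_of_ne hli] at hl
    exact Finset.prod_eq_zero (Finset.mem_univ l) (by simp [hli, Ne.symm hl])

lemma mul_emb_apply (i : Fin t) (A : Matrix (Fin m) (Fin m) F)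
    (τ : Matrix (Fin t → Fin m) (Fin t → Fin m) F) (x y : Fin t → Fin m) :
    (τ * emb i A) x y = ∑ u, τ x (update y i u) * A u (y i) := by
  have hT : (emb i A)ᵀ = emb i Aᵀ := by
    rw [emb, emb, kroneckerPow_transpose]
    congr 1
    funext l
    rcases eq_or_ne l i with rfl | h <;> simp [*]
  have h := emb_mul_apply i Aᵀ τᵀ y x
  rw [← hT, ← transpose_mul, transpose_apply] at h
  rw [h]
  exact Finset.sum_congr rfl fun u _ => mul_comm _ _

lemma emb_mul (i : Fin t) (A B : Matrix (Fin m) (Fin m) F) :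
    emb i A * emb i B = emb i (A * B) := by
  rw [emb, emb, kroneckerPow_mul]
  exact congrArg kroneckerPow (funext fun l => by
    rcases eq_or_ne l i with rfl | h <;> simp [*])

lemma emb_one (i : Fin t) : emb i (1 : Matrix (Fin m) (Fin m) F) = 1 := by
  rw [emb, Pi.mulSingle_one]; exact kroneckerPow_one

lemma emb_add (i : Fin t) (A B : Matrix (Fin m) (Fin m) F) :
    emb i (A + B) = emb i A + emb i B := by
  ext x y
  rw [Matrix.add_apply, ← Matrix.one_mul (emb i (A + B)), ← Matrix.one_mul (emb i A),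
    ← Matrix.one_mul (emb i B), mul_emb_apply, mul_emb_apply, mul_emb_apply]
  simp [mul_add, Finset.sum_add_distrib]

lemma emb_sub (i : Fin t) (A B : Matrix (Fin m) (Fin m) F) :
    emb i (A - B) = emb i A - emb i B :=
  eq_sub_of_add_eq (by rw [← emb_add, sub_add_cancel])

lemma emb_zero (i : Fin t) : emb i (0 : Matrix (Fin m) (Fin m) F) = 0 :=
  add_eq_left.1 ((emb_add i 0 0).symm.trans (by rw [add_zero]))

lemma single_mul_emb (i : Fin t) (a b : Fin m) (τ : Matrix (Fin t → Fin m) (Fin t → Fin m) F)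
    (x y : Fin t → Fin m) :
    (emb i (single a b (1 : F)) * τ) x y = if x i = a then τ (update x i b) y else 0 := by
  rw [emb_mul_apply]
  split_ifs with h
  · rw [Fintype.sum_eq_single b fun u hu => by simp [hu.symm]]
    simp [h]
  · simp [Ne.symm h]

lemma emb_mul_single (i : Fin t) (a b : Fin m) (τ : Matrix (Fin t → Fin m) (Fin t → Fin m) F)
    (x y : Fin t → Fin m) :
    (τ * emb i (single a b (1 : F))) x y = if y i = b then τ x (update y i a) else 0 := by
  rw [mul_emb_apply]
  split_ifs with h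
  · rw [Fintype.sum_eq_single a fun u hu => by simp [hu.symm]]
    simp [h]
  · simp [Ne.symm h]

/-- At the factor `i` the matrix has the form `A`, normalised at `(p, q)`. -/
def At (i : Fin t) (A : Matrix (Fin m) (Fin m) F) (p q : Fin m)
    (τ : Matrix (Fin t → Fin m) (Fin t → Fin m) F) : Prop :=
  ∀ x y, τ x y = A (x i) (y i) * τ (update x i p) (update y i q)

variable {i j : Fin t} {A : Matrix (Fin m) (Fin m) F} {p q : Fin m}
  {τ τ' : Matrix (Fin t → Fin m) (Fin t → Fin m) F}

lemma At.sub (h : At i A p q τ) (h' : At i A p q τ') : At i A p q (τ - τ') := fun x y => by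
  rw [Matrix.sub_apply, Matrix.sub_apply, h x y, h' x y, mul_sub]

lemma At.left (h : At i A p q τ) (hij : i ≠ j) (L : Matrix (Fin m) (Fin m) F) :
    At i A p q (emb j L * τ) := fun x y => by
  rw [emb_mul_apply, emb_mul_apply, Finset.mul_sum]
  refine Finset.sum_congr rfl fun u _ => ?_
  rw [h, update_of_ne hij, update_of_ne hij.symm, update_comm hij p u x]
  ring

lemma At.right (h : At i A p q τ) (hij : i ≠ j) (R : Matrix (Fin m) (Fin m) F) :
    At i A p q (τ * emb j R) := fun x y => by
  rw [mul_emb_apply, mul_emb_apply, Finset.mul_sum]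
  refine Finset.sum_congr rfl fun u _ => ?_
  rw [h, update_of_ne hij, update_of_ne hij.symm, update_comm hij q u y]
  ring

lemma single_det_one {a b : Fin m} (hab : a ≠ b) (c : F) :
    ((1 : Matrix (Fin m) (Fin m) F) + single a b c).det = 1 := by
  have := Matrix.det_transvection_of_ne a b hab c
  rwa [Matrix.transvection] at this

lemma ss0 {a b c d : Fin m} (h : b ≠ c) :
    single a b (1 : F) * single c d (1 : F) = 0 := by
  ext x y
  rw [Matrix.mul_apply, Matrix.zero_apply]
  refine Finset.sum_eq_zero fun u _ => ?_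
  simp only [single_apply]
  split_ifs with h1 h2 <;> simp_all

/-- The second differences. -/
lemma sandwich_mem {m : ℕ} (hm : 3 ≤ m)
    {S : Submodule F (Matrix (Fin t → Fin m) (Fin t → Fin m) F)}
    (hS : ∀ (j : Fin t) (g h : Matrix (Fin m) (Fin m) F), g.det = 1 → h * g = 1 →
      ∀ τ ∈ S, emb j g * τ * emb j h ∈ S)
    {τ : Matrix (Fin t → Fin m) (Fin t → Fin m) F} (hτ : τ ∈ S) (j : Fin t) {a b : Fin m}
    (hab : a ≠ b) :
    emb j (single a b (1 : F)) * τ * emb j (single a b (1 : F)) ∈ S ∧
      emb j (single a b (1 : F)) * τ - τ * emb j (single a b (1 : F)) ∈ S := by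
  obtain ⟨c, hca, hcb⟩ : ∃ c : Fin m, c ≠ a ∧ c ≠ b := by
    obtain ⟨c, -, hc⟩ := Finset.exists_mem_notMem_of_card_lt_card
      (s := ({a, b} : Finset (Fin m))) (t := Finset.univ)
      (lt_of_le_of_lt Finset.card_le_two (by simp only [Finset.card_univ, Fintype.card_fin]; omega))
    exact ⟨c, by simpa using hc⟩
  have key : ∀ N : Matrix (Fin m) (Fin m) F, (1 + N).det = 1 → N * N = 0 → ∀ σ ∈ S,
      (1 + emb j N) * σ * (1 - emb j N) ∈ S := by
    intro N hN hN2 σ hσ
    have := hS j (1 + N) (1 - N) hN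
      (by rw [sub_mul, one_mul, mul_add, mul_one, hN2, add_zero, add_sub_cancel_right]) σ hσ
    rwa [emb_add, emb_sub, emb_one] at this
  have hdiff : ∀ N : Matrix (Fin m) (Fin m) F, (1 + N).det = 1 → N * N = 0 →
      emb j N * τ - τ * emb j N - emb j N * τ * emb j N ∈ S := fun N hN hN2 => by
    have h := S.sub_mem (key N hN hN2 τ hτ) hτ
    convert h using 1
    noncomm_ring
  set E := emb (F := F) j (single a b (1 : F))
  set E' := emb (F := F) j (single a c 1)
  set C := emb (F := F) j (single c b 1)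
  have hsum : (1 + (single a b (1 : F) + single a c 1)).det = 1 := by
    have : single a b (1 : F) + single a c 1
        = vecMulVec (Pi.single a 1) (Pi.single b (1 : F) + Pi.single c 1) := by
      rw [vecMulVec_add, ← single_eq_single_vecMulVec_single,
        ← single_eq_single_vecMulVec_single]
    rw [this, TensorMax.det_one_add_vecMulVec]
    simp [hab, hca.symm]
  have h1 := hdiff _ (single_det_one hab (1 : F)) (ss0 hab.symm)
  have h2 := hdiff _ (single_det_one hca.symm (1 : F))
    (ss0 hca)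
  have h3 := hdiff _ hsum (by
    simp [add_mul, mul_add, ss0 hab.symm,
      ss0 hca])
  rw [emb_add] at h3
  have hX : E * τ * E' + E' * τ * E ∈ S := by
    have := S.neg_mem (S.sub_mem (S.sub_mem h3 h1) h2)
    convert this using 1
    noncomm_ring
  have hY := key _ (single_det_one hcb (1 : F)) (ss0 hcb.symm) _ hX
  change (1 + C) * _ * (1 - C) ∈ S at hY
  have e1 : (1 + C) * E = E := by
    rw [add_mul, one_mul, add_eq_left, emb_mul, ss0 hab.symm, emb_zero]
  have e2 : (1 + C) * E' = E' := by
    rw [add_mul, one_mul, add_eq_left, emb_mul, ss0 hab.symm, emb_zero]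
  have e3 : E * (1 - C) = E := by
    rw [mul_sub, mul_one, sub_eq_self, emb_mul, ss0 hcb.symm, emb_zero]
  have e4 : E' * (1 - C) = E' - E := by
    rw [mul_sub, mul_one, emb_mul, single_mul_single_same, one_mul]
  have e5 : (1 + C) * (E * τ * E' + E' * τ * E) * (1 - C)
      = ((1 + C) * E) * τ * (E' * (1 - C)) + ((1 + C) * E') * τ * (E * (1 - C)) := by
    noncomm_ring
  rw [e5, e1, e2, e3, e4] at hY
  have hE : E * τ * E ∈ S := by
    convert S.sub_mem hX hY using 1
    noncomm_ring
  refine ⟨hE, ?_⟩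
  have := S.add_mem h1 hE
  rwa [sub_add_cancel] at this

/-- Treating one factor. -/
lemma exists_step (hm : 3 ≤ m) {S : Submodule F (Matrix (Fin t → Fin m) (Fin t → Fin m) F)}
    (hS : ∀ (j : Fin t) (g h : Matrix (Fin m) (Fin m) F), g.det = 1 → h * g = 1 →
      ∀ τ ∈ S, emb j g * τ * emb j h ∈ S)
    (hτ : τ ∈ S) (h0 : τ ≠ 0) (j : Fin t) :
    ∃ τ' ∈ S, ∃ (B : Matrix (Fin m) (Fin m) F) (a b : Fin m), τ' ≠ 0 ∧ At j B a b τ' ∧
      (∀ i, i ≠ j → ∀ A p q, At i A p q τ → At i A p q τ') ∧
      ((a ≠ b ∧ B = single a b 1) ∨ (a = b ∧ B = 1 ∧ τ' = τ)) := by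
  by_cases h1 : ∃ a b : Fin m, a ≠ b ∧ emb j (single a b (1 : F)) * τ * emb j (single a b (1 : F)) ≠ 0
  · obtain ⟨a, b, hab, hne⟩ := h1
    refine ⟨_, (sandwich_mem hm hS hτ j hab).1, _, a, b, hne, fun x y => ?_,
      fun i hi A p q h => (h.left hi _).right hi _, Or.inl ⟨hab, rfl⟩⟩
    simp only [emb_mul_single, single_mul_emb, update_self, update_idem, if_true]
    by_cases hx : x j = a <;> by_cases hy : y j = b <;>
      simp [hx, hy, Ne.symm, single_apply, eq_comm] <;> simp_all
  push Not at h1
  have hblock : ∀ x y, x j ≠ y j → τ x y = 0 := by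
    intro x y hxy
    have := congrFun (congrFun (h1 (y j) (x j) (Ne.symm hxy)) (update x j (y j))) (update y j (x j))
    simpa [emb_mul_single, single_mul_emb] using this
  by_cases h2 : ∃ a b : Fin m, a ≠ b ∧
      emb j (single a b (1 : F)) * τ - τ * emb j (single a b (1 : F)) ≠ 0
  · obtain ⟨a, b, hab, hne⟩ := h2
    refine ⟨_, (sandwich_mem hm hS hτ j hab).2, _, a, b, hne, fun x y => ?_,
      fun i hi A p q h => (h.left hi _).sub (h.right hi _), Or.inl ⟨hab, rfl⟩⟩
    simp only [Matrix.sub_apply, emb_mul_single, single_mul_emb, update_self, update_idem, if_true]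
    by_cases hx : x j = a
    · by_cases hy : y j = b
      · conv_rhs => rw [show update x j a = x by rw [← hx, update_eq_self],
          show update y j b = y by rw [← hy, update_eq_self]]
        simp [hx, hy]
      · rw [if_pos hx, if_neg hy, hblock _ _ (by simpa using Ne.symm hy)]
        simp [single_apply, hx, Ne.symm hy]
    · by_cases hy : y j = b
      · rw [if_neg hx, if_pos hy, hblock _ _ (by simpa using hx)]
        simp [single_apply, Ne.symm hx, hy]
      · simp [hx, hy, single_apply, Ne.symm hx]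
  push Not at h2
  have ⟨a₀⟩ : Nonempty (Fin m) := ⟨⟨0, by omega⟩⟩
  refine ⟨τ, hτ, 1, a₀, a₀, h0, fun x y => ?_, fun i _ A p q h => h, Or.inr ⟨rfl, rfl, rfl⟩⟩
  by_cases hxy : x j = y j
  · rw [hxy, one_apply_eq, one_mul]
    rcases eq_or_ne (x j) a₀ with h | h
    · rw [show update x j a₀ = x by rw [← h, update_eq_self],
        show update y j a₀ = y by rw [← h, hxy, update_eq_self]]
    · have := congrFun (congrFun (sub_eq_zero.1 (h2 (x j) a₀ h)) x) (update y j a₀)
      rw [single_mul_emb, emb_mul_single, if_pos rfl, update_self, if_pos rfl, update_idem] at this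
      rw [this, hxy, update_eq_self]
  · rw [hblock x y hxy, one_apply_ne hxy, zero_mul]

/-- An invariant space with a non-scalar contains a product of units and identities. -/
theorem exists_pure_mem (hm : 3 ≤ m) {S : Submodule F (Matrix (Fin t → Fin m) (Fin t → Fin m) F)}
    (hS : ∀ (j : Fin t) (g h : Matrix (Fin m) (Fin m) F), g.det = 1 → h * g = 1 →
      ∀ τ ∈ S, emb j g * τ * emb j h ∈ S)
    (hτ : τ ∈ S) (hns : ∀ c : F, τ ≠ c • 1) :
    ∃ A : Fin t → Matrix (Fin m) (Fin m) F, kroneckerPow A ∈ S ∧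
      (∀ i, A i = 1 ∨ ∃ a b : Fin m, a ≠ b ∧ A i = single a b 1) ∧
      ∃ i, ∃ a b : Fin m, a ≠ b ∧ A i = single a b 1 := by
  classical
  have key : ∀ J : Finset (Fin t), ∃ τ' ∈ S, ∃ (A : Fin t → Matrix (Fin m) (Fin m) F)
      (p q : Fin t → Fin m), τ' ≠ 0 ∧ (∀ i ∈ J, At i (A i) (p i) (q i) τ') ∧
      (∀ i ∈ J, (p i ≠ q i ∧ A i = single (p i) (q i) 1) ∨ (p i = q i ∧ A i = 1)) ∧
      (τ' = τ ∨ ∃ i ∈ J, p i ≠ q i) := by
    intro J
    induction J using Finset.induction_on with
    | empty =>
      exact ⟨τ, hτ, 1, fun _ => ⟨0, by omega⟩, fun _ => ⟨0, by omega⟩,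
        fun h => hns 0 (by simp [h]), by simp, by simp, Or.inl rfl⟩
    | @insert j J hj ih =>
      obtain ⟨τ₁, hτ₁, A, p, q, hne, hat, hun, hor⟩ := ih
      obtain ⟨τ₂, hτ₂, B, a, b, hne₂, hatj, hkeep, hB⟩ := exists_step hm hS hτ₁ hne j
      refine ⟨τ₂, hτ₂, update A j B, update p j a, update q j b, hne₂, fun i hi => ?_,
        fun i hi => ?_, ?_⟩
      · rcases Finset.mem_insert.1 hi with rfl | hi
        · simpa using hatj
        · have hij : i ≠ j := fun h => hj (h ▸ hi)
          simpa [hij] using hkeep i hij _ _ _ (hat i hi)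
      · rcases Finset.mem_insert.1 hi with rfl | hi
        · rcases hB with ⟨h1, h2⟩ | ⟨h1, h2, -⟩ <;> simp [h1, h2]
        · have hij : i ≠ j := fun h => hj (h ▸ hi)
          simpa [hij] using hun i hi
      · rcases hB with ⟨h1, -⟩ | ⟨-, -, rfl⟩
        · exact Or.inr ⟨j, Finset.mem_insert_self _ _, by simpa using h1⟩
        · rcases hor with h | ⟨i, hi, h⟩
          · exact Or.inl h
          · have hij : i ≠ j := fun h => hj (h ▸ hi)
            exact Or.inr ⟨i, Finset.mem_insert_of_mem hi, by simpa [hij] using h⟩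
  obtain ⟨τ', hτ', A, p, q, hne, hat, hun, hor⟩ := key Finset.univ
  have hprod : ∀ (J : Finset (Fin t)) (x y : Fin t → Fin m), τ' x y
      = (∏ i ∈ J, A i (x i) (y i)) * τ' (J.piecewise p x) (J.piecewise q y) := by
    intro J
    induction J using Finset.induction_on with
    | empty => simp
    | @insert j J hj ih =>
      intro x y
      rw [ih x y, hat j (Finset.mem_univ j), Finset.piecewise_eq_of_notMem _ _ _ hj,
        Finset.piecewise_eq_of_notMem _ _ _ hj, Finset.piecewise_insert, Finset.piecewise_insert,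
        Finset.prod_insert hj]
      ring
  have hτ'eq : τ' = τ' p q • kroneckerPow A := by
    ext x y
    rw [hprod Finset.univ x y, Finset.piecewise_univ, Finset.piecewise_univ, Matrix.smul_apply,
      smul_eq_mul, mul_comm]
    rfl
  have hpq : τ' p q ≠ 0 := fun h => hne (by rw [hτ'eq, h, zero_smul])
  refine ⟨A, ?_, fun i => ?_, ?_⟩
  · have := S.smul_mem (τ' p q)⁻¹ hτ'
    have e : (τ' p q)⁻¹ • τ' = kroneckerPow A := by
      conv_lhs => arg 2; rw [hτ'eq]
      rw [inv_smul_smul₀ hpq]
    rwa [e] at this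
  · rcases hun i (Finset.mem_univ i) with ⟨h, h'⟩ | ⟨-, h'⟩
    · exact Or.inr ⟨_, _, h, h'⟩
    · exact Or.inl h'
  · by_cases hsome : ∃ i, p i ≠ q i
    · obtain ⟨i, hi⟩ := hsome
      rcases hun i (Finset.mem_univ i) with ⟨h, h'⟩ | ⟨h, -⟩
      · exact ⟨i, _, _, h, h'⟩
      · exact absurd h hi
    push Not at hsome
    rcases hor with h | ⟨i, -, hi⟩
    · refine absurd ?_ (hns (τ' p q))
      have hA : A = fun _ => 1 := funext fun i => by
        rcases hun i (Finset.mem_univ i) with ⟨h, -⟩ | ⟨-, h⟩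
        · exact absurd (hsome i) h
        · exact h
      rw [← h, ← kroneckerPow_one (F := F) (d := m) (t := t), ← hA]
      exact hτ'eq
    · exact absurd (hsome i) hi

end CfsgLib.WreathTensor14
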