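import Cfsg.Agent.WreathTensor14.Classify

/-!
A root element is not conjugate inside `M` to a transposition of two factors.
-/

set_option autoImplicit false
set_option maxHeartbeats 800000

namespace CfsgLib.WreathTensor14

open Matrix Function Module
open CfsgLib.Aschbacher (kroneckerPow kroneckerPow_mul kroneckerPow_one)
open CfsgLib.TensorMax (memb colL exists_covec exists_dual pure_mulVec)
open scoped commutatorElement

variable {F : Type*} [Field F] {t s : ℕ}

/-- The elementary transvection `1 + c E_pq`. -/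
def tgl {p q : Fin 3} (h : p ≠ q) (c : F) : GL (Fin 3) F :=
  Matrix.GeneralLinearGroup.mkOfDetNeZero (1 + single p q c) (by rw [single_det_one h]; exact one_ne_zero)

@[simp] lemma tgl_val {p q : Fin 3} (h : p ≠ q) (c : F) :
    (tgl h c).val = 1 + single p q c := rfl

lemma tgl_det {p q : Fin 3} (h : p ≠ q) (c : F) : (tgl h c).val.det = 1 := by
  rw [tgl_val, single_det_one h]

lemma tgl_commutator {p q r : Fin 3} (hpq : p ≠ q) (hpr : p ≠ r) (hrq : r ≠ q) (c : F) :
    ⁅tgl hpr c, tgl hrq (1 : F)⁆ = tgl hpq c := by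
  have h : tgl hpr c * tgl hrq (1 : F) = tgl hpq c * (tgl hrq (1 : F) * tgl hpr c) := by
    refine Units.ext ?_
    have e1 : single r q (1 : F) * single p r c = 0 :=
      Matrix.single_mul_single_of_ne (1 : F) r q p hpq.symm c
    have e2 : single p q c * single r q (1 : F) = 0 :=
      Matrix.single_mul_single_of_ne c p q r hrq.symm 1
    have e3 : single p q c * single p r c = 0 := Matrix.single_mul_single_of_ne c p q p hpq.symm c
    simp only [Units.val_mul, tgl_val, add_mul, mul_add, one_mul, mul_one, e1, e2, e3,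
      single_mul_single_same, mul_one, mul_zero, add_zero]
    abel
  rw [commutatorElement_def, h]
  group

/-- The triangular shape of the matrices commuting with a root element. -/
def IsTri (n : ℕ) (B : Matrix (Fin 3) (Fin 3) F) : Prop :=
  B 1 0 = 0 ∧ B 2 0 = 0 ∧ B 2 1 = 0 ∧ B 0 0 = B 2 2 ∧
    (1 ≤ n → B 0 0 = 1 ∧ B 1 1 = 1) ∧ (2 ≤ n → B 0 1 = 0 ∧ B 1 2 = 0) ∧ (3 ≤ n → B 0 2 = 0)

lemma IsTri.eq_one {n : ℕ} (hn : 3 ≤ n) {B : Matrix (Fin 3) (Fin 3) F} (h : IsTri n B) : B = 1 := by
  obtain ⟨h1, h2, h3, h4, h5, h6, h7⟩ := h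
  obtain ⟨a, b⟩ := h5 (by omega)
  obtain ⟨c, d⟩ := h6 (by omega)
  have e := h7 hn
  have f : B 2 2 = 1 := h4 ▸ a
  ext i j
  fin_cases i <;> fin_cases j <;> simp [h1, h2, h3, a, b, c, d, e, f]

lemma IsTri.commutator {n : ℕ} {B C : GL (Fin 3) F} (hB : IsTri n B.val) (hC : IsTri n C.val) :
    IsTri (n + 1) (⁅B, C⁆).val := by
  obtain ⟨b10, b20, b21, b02, b1, b2, -⟩ := hB
  obtain ⟨c10, c20, c21, c02, c1, c2, -⟩ := hC
  have h : (⁅B, C⁆).val * (C.val * B.val) = B.val * C.val := by
    rw [← Units.val_mul, ← Units.val_mul, ← Units.val_mul]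
    congr 1
    rw [commutatorElement_def]
    group
  have hd : (C.val * B.val).det ≠ 0 :=
    ((Matrix.isUnit_iff_isUnit_det _).1 (C * B).isUnit).ne_zero
  set Z := (⁅B, C⁆).val
  set X := C.val * B.val with hX
  set Y := B.val * C.val with hY
  have x10 : X 1 0 = 0 := by simp [hX, Matrix.mul_apply, Fin.sum_univ_three, b10, b20, c10]
  have x20 : X 2 0 = 0 := by simp [hX, Matrix.mul_apply, Fin.sum_univ_three, b10, b20, c20]
  have x21 : X 2 1 = 0 := by simp [hX, Matrix.mul_apply, Fin.sum_univ_three, b21, c20, c21]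
  have y10 : Y 1 0 = 0 := by simp [hY, Matrix.mul_apply, Fin.sum_univ_three, b10, c20, c10]
  have y20 : Y 2 0 = 0 := by simp [hY, Matrix.mul_apply, Fin.sum_univ_three, c10, b20, c20]
  have y21 : Y 2 1 = 0 := by simp [hY, Matrix.mul_apply, Fin.sum_univ_three, b21, b20, c21]
  have e00 : Y 0 0 = X 0 0 := by
    simp [hX, hY, Matrix.mul_apply, Fin.sum_univ_three, b10, b20, c10, c20, mul_comm]
  have e11 : Y 1 1 = X 1 1 := by
    simp [hX, hY, Matrix.mul_apply, Fin.sum_univ_three, b10, b21, c10, c21, mul_comm]
  have e22 : Y 2 2 = X 2 2 := by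
    simp [hX, hY, Matrix.mul_apply, Fin.sum_univ_three, b20, b21, c20, c21, mul_comm]
  have hX3 : X.det = X 0 0 * X 1 1 * X 2 2 := by
    rw [Matrix.det_fin_three, x10, x20, x21]; ring
  rw [hX3, mul_ne_zero_iff, mul_ne_zero_iff] at hd
  obtain ⟨⟨n0, n1⟩, n2⟩ := hd
  have E := fun i j => congrFun (congrFun h i) j
  simp only [Matrix.mul_apply (M := Z), Fin.sum_univ_three] at E
  have z10 : Z 1 0 = 0 := by simpa [x10, x20, y10, n0] using E 1 0
  have z20 : Z 2 0 = 0 := by simpa [x10, x20, y20, n0] using E 2 0
  have z21 : Z 2 1 = 0 := by simpa [x21, y21, z20, n1] using E 2 1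
  have z00 : Z 0 0 = 1 := by simpa [x10, x20, e00, n0] using E 0 0
  have z11 : Z 1 1 = 1 := by simpa [x21, e11, z10, n1] using E 1 1
  have z22 : Z 2 2 = 1 := by simpa [e22, z20, z21, n2] using E 2 2
  refine ⟨z10, z20, z21, z00.trans z22.symm, fun _ => ⟨z00, z11⟩, fun hn => ?_, fun hn => ?_⟩
  · obtain ⟨b00, b11⟩ := b1 (by omega)
    obtain ⟨c00, c11⟩ := c1 (by omega)
    have b22 : B.val 2 2 = 1 := b02 ▸ b00
    have c22 : C.val 2 2 = 1 := c02 ▸ c00
    have z01 : Z 0 1 = 0 := by
      have h1 : Y 0 1 = X 0 1 := by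
        simp [hX, hY, Matrix.mul_apply, Fin.sum_univ_three, b00, b11, c00, c11, b21, c21, add_comm]
      have := E 0 1
      rw [h1, z00, x21, one_mul, mul_zero, add_zero, add_eq_left] at this
      exact (mul_eq_zero.1 this).resolve_right n1
    have z12 : Z 1 2 = 0 := by
      have h1 : Y 1 2 = X 1 2 := by
        simp [hX, hY, Matrix.mul_apply, Fin.sum_univ_three, b11, c11, b22, c22, b10, c10, add_comm]
      have := E 1 2
      rw [h1, z10, z11, zero_mul, zero_add, one_mul, add_eq_left] at this
      exact (mul_eq_zero.1 this).resolve_right n2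
    exact ⟨z01, z12⟩
  · obtain ⟨b00, b11⟩ := b1 (by omega)
    obtain ⟨c00, c11⟩ := c1 (by omega)
    obtain ⟨b01, b12⟩ := b2 (by omega)
    obtain ⟨c01, c12⟩ := c2 (by omega)
    have b22 : B.val 2 2 = 1 := b02 ▸ b00
    have c22 : C.val 2 2 = 1 := c02 ▸ c00
    have hcomm : B * C = C * B := by
      refine Units.ext (Matrix.ext fun i j => ?_)
      fin_cases i <;> fin_cases j <;>
        simp [Matrix.mul_apply, Fin.sum_univ_three, b10, b20, b21, b00, b11, b22, b01, b12, c10,
          c20, c21, c00, c11, c22, c01, c12, add_comm]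
    have : ⁅B, C⁆ = 1 := commutatorElement_eq_one_iff_mul_comm.2 hcomm
    rw [show Z = 1 from congrArg Units.val this]
    rfl

lemma emb_mulVec (i : Fin t) (A : Matrix (Fin 3) (Fin 3) F) (z : TV F 3 t) (x : Fin t → Fin 3) :
    (emb i A *ᵥ z) x = ∑ u, A (x i) u * z (update x i u) :=
  emb_mul_apply i A (Matrix.of fun p (_ : Fin t → Fin 3) => z p) x x

lemma sum_transv_row (i p q : Fin 3) (f : Fin 3 → F) :
    ∑ u, ((1 : Matrix (Fin 3) (Fin 3) F) + single p q (1 : F)) i u * f u
      = f i + if i = p then f q else 0 := by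
  simp only [Matrix.add_apply, add_mul, Finset.sum_add_distrib]
  congr 1
  · simp [Matrix.one_apply]
  · rcases eq_or_ne i p with rfl | h
    · simp [Matrix.single_apply]
    · simp [Matrix.single_apply, h, h.symm]

/-- The diagonal embedding in the factors `a` and `b`. -/
def pairHom (a b : Fin t) : GL (Fin 3) F →* (Fin t → GL (Fin 3) F) where
  toFun c := fun i => if i = a ∨ i = b then c else 1
  map_one' := by funext i; simp
  map_mul' c d := by funext i; by_cases h : i = a ∨ i = b <;> simp [h]

lemma pairHom_mulVec {a b : Fin t} (hab : a ≠ b) {p q : Fin 3} (hpq : p ≠ q) (z : TV F 3 t)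
    (x : Fin t → Fin 3) :
    kronE (pairHom a b (tgl hpq 1)) z x
      = (z x + if x b = p then z (update x b q) else 0) + if x a = p then
          (z (update x a q) + if x b = p then z (update (update x a q) b q) else 0) else 0 := by
  have : (fun i => (pairHom a b (tgl hpq (1 : F)) i).val)
      = fun i => (Pi.mulSingle a (1 + single p q (1 : F)) : Fin t → Matrix (Fin 3) (Fin 3) F) i
        * (Pi.mulSingle b (1 + single p q (1 : F)) : Fin t → Matrix (Fin 3) (Fin 3) F) i := by
    funext i
    rcases eq_or_ne i a with rfl | ha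
    · simp [pairHom, hab]
    · rcases eq_or_ne i b with rfl | hb
      · simp [pairHom, ha]
      · simp [pairHom, ha, hb]
  rw [kronE_apply, this, ← kroneckerPow_mul, ← mulVec_mulVec]
  change (emb a _ *ᵥ (emb b _ *ᵥ z)) x = _
  rw [emb_mulVec, sum_transv_row, emb_mulVec, sum_transv_row, update_eq_self]
  simp only [emb_mulVec, sum_transv_row, update_eq_self, update_of_ne hab.symm]
  rw [show update (update x a q) b (x b) = update x a q by
    funext i; rcases eq_or_ne i b with rfl | h <;> simp [hab.symm, *]]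

lemma single_mulVec_kron {l : Fin t} {p q : Fin 3} (hpq : p ≠ q) (z : TV F 3 t)
    (x : Fin t → Fin 3) :
    kronE (Pi.mulSingle l (tgl hpq (1 : F))) z x
      = z x + if x l = p then z (update x l q) else 0 := by
  have : (fun i => ((Pi.mulSingle l (tgl hpq (1 : F)) : Fin t → GL (Fin 3) F) i).val)
      = Pi.mulSingle l (1 + single p q (1 : F)) := by
    funext i; rcases eq_or_ne i l with rfl | h <;> simp [*]
  rw [kronE_apply, this]
  change (emb l _ *ᵥ z) x = _
  rw [emb_mulVec, sum_transv_row, update_eq_self]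

/-- The maps commuting with all transvections of the centraliser of a transposition of two factors
are determined by two values. -/
theorem commutant_small {a b : Fin t} (hab : a ≠ b) (Z : TV F 3 t →ₗ[F] TV F 3 t)
    (hpair : ∀ p q : Fin 3, ∀ h : p ≠ q, ∀ v,
      Z (kronE (pairHom a b (tgl h (1 : F))) v) = kronE (pairHom a b (tgl h (1 : F))) (Z v))
    (hsingle : ∀ l, l ≠ a → l ≠ b → ∀ p q : Fin 3, ∀ h : p ≠ q, ∀ v,
      Z (kronE (Pi.mulSingle l (tgl h (1 : F))) v) = kronE (Pi.mulSingle l (tgl h (1 : F))) (Z v))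
    (x₀ : Fin t → Fin 3) (hx₀a : x₀ a = 0) (hx₀b : x₀ b = 1)
    (hx₀ : ∀ l, l ≠ a → l ≠ b → x₀ l = 0)
    (h0 : Z (Pi.single x₀ 1) x₀ = 0)
    (h1 : Z (Pi.single x₀ 1) (update (update x₀ a 1) b 0) = 0) : Z = 0 := by
  classical
  -- pair transvections on basis vectors
  have hmove : ∀ (p q : Fin 3) (h : p ≠ q) (x : Fin t → Fin 3), x a = q → x b ≠ q →
      kronE (pairHom a b (tgl h (1 : F))) (Pi.single x 1)
        = Pi.single x 1 + Pi.single (update x a p) 1 := by
    intro p q h x hxa hxb
    funext y
    rw [pairHom_mulVec hab h, Pi.add_apply]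
    have k1 : y b = p → (Pi.single x (1 : F) : TV F 3 t) (update y b q) = 0 := fun _ =>
      Pi.single_eq_of_ne (fun e => hxb (by rw [← e, update_self])) _
    have k2 : y b = p → (Pi.single x (1 : F) : TV F 3 t) (update (update y a q) b q) = 0 := fun _ =>
      Pi.single_eq_of_ne (fun e => hxb (by rw [← e, update_self])) _
    have k3 : (if y a = p then (Pi.single x (1 : F) : TV F 3 t) (update y a q) else 0)
        = (Pi.single (update x a p) (1 : F) : TV F 3 t) y := by
      simp only [Pi.single_apply]
      by_cases hy : y a = p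
      · rw [if_pos hy]
        refine if_congr ?_ rfl rfl
        constructor
        · intro e; rw [← e, update_idem, ← hy, update_eq_self]
        · rintro rfl; rw [update_idem, ← hxa, update_eq_self]
      · rw [if_neg hy, if_neg fun e => hy (by rw [e, update_self])]
    by_cases hb : y b = p <;> simp [hb, k1, k2, ← k3]
  have hmove' : ∀ (p q : Fin 3) (h : p ≠ q) (x : Fin t → Fin 3), x a ≠ q → x b = q →
      kronE (pairHom a b (tgl h (1 : F))) (Pi.single x 1)
        = Pi.single x 1 + Pi.single (update x b p) 1 := by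
    intro p q h x hxa hxb
    funext y
    rw [pairHom_mulVec hab h, Pi.add_apply]
    have k1 : (Pi.single x (1 : F) : TV F 3 t) (update y a q) = 0 :=
      Pi.single_eq_of_ne (fun e => hxa (by rw [← e, update_self])) _
    have k2 : (Pi.single x (1 : F) : TV F 3 t) (update (update y a q) b q) = 0 :=
      Pi.single_eq_of_ne (fun e => hxa (by rw [← e, update_of_ne hab, update_self])) _
    have k3 : (if y b = p then (Pi.single x (1 : F) : TV F 3 t) (update y b q) else 0)
        = (Pi.single (update x b p) (1 : F) : TV F 3 t) y := by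
      simp only [Pi.single_apply]
      by_cases hy : y b = p
      · rw [if_pos hy]
        refine if_congr ?_ rfl rfl
        constructor
        · intro e; rw [← e, update_idem, ← hy, update_eq_self]
        · rintro rfl; rw [update_idem, ← hxb, update_eq_self]
      · rw [if_neg hy, if_neg fun e => hy (by rw [e, update_self])]
    simp [k1, k2, ← k3]
  have hfix : ∀ (p q : Fin 3) (h : p ≠ q) (x : Fin t → Fin 3), x a ≠ q → x b ≠ q →
      kronE (pairHom a b (tgl h (1 : F))) (Pi.single x 1) = Pi.single x 1 := by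
    intro p q h x hxa hxb
    funext y
    rw [pairHom_mulVec hab h]
    have k1 : (Pi.single x (1 : F) : TV F 3 t) (update y b q) = 0 :=
      Pi.single_eq_of_ne (fun e => hxb (by rw [← e, update_self])) _
    have k2 : (Pi.single x (1 : F) : TV F 3 t) (update y a q) = 0 :=
      Pi.single_eq_of_ne (fun e => hxa (by rw [← e, update_self])) _
    have k3 : (Pi.single x (1 : F) : TV F 3 t) (update (update y a q) b q) = 0 :=
      Pi.single_eq_of_ne (fun e => hxb (by rw [← e, update_self])) _
    simp [k1, k2, k3]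
  set z := Z (Pi.single x₀ 1) with hz
  -- values off the other factors
  have hoth : ∀ l, l ≠ a → l ≠ b → ∀ y : Fin t → Fin 3, y l ≠ 0 → z y = 0 := by
    intro l hla hlb y hy
    have hsf : kronE (Pi.mulSingle l (tgl (Ne.symm hy) (1 : F))) (Pi.single x₀ 1)
        = Pi.single x₀ 1 := by
      funext w
      have k1 : (Pi.single x₀ (1 : F) : TV F 3 t) (update w l (y l)) = 0 :=
        Pi.single_eq_of_ne (fun e => hy (by
          have := congrFun e l
          rwa [update_self, hx₀ l hla hlb] at this)) _
      rw [single_mulVec_kron, k1]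
      simp
    have := congrFun (hsingle l hla hlb 0 (y l) (Ne.symm hy) (Pi.single x₀ 1)) (update y l 0)
    rw [hsf, ← hz, single_mulVec_kron, update_self, if_pos rfl, update_idem, update_eq_self,
      eq_comm, add_eq_left] at this
    exact this
  -- values with an entry two
  have h2 : ∀ y : Fin t → Fin 3, (y a = 2 → z y = 0) ∧ (y b = 2 → z y = 0) := by
    intro y
    have key : ∀ p : Fin 3, ∀ hp : p ≠ 2, ∀ w, z w = z w + (if w b = p then z (update w b 2) else 0)
        + if w a = p then (z (update w a 2) + if w b = p then z (update (update w a 2) b 2) else 0)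
          else 0 := by
      intro p hp w
      have := congrFun (hpair p 2 hp (Pi.single x₀ 1)) w
      rw [hfix p 2 hp x₀ (by rw [hx₀a]; decide) (by rw [hx₀b]; decide), ← hz,
        pairHom_mulVec hab hp] at this
      exact this
    constructor
    · intro hy
      obtain ⟨p, hp, hpy⟩ : ∃ p : Fin 3, p ≠ 2 ∧ y b ≠ p := by
        rcases eq_or_ne (y b) 0 with h | h
        · exact ⟨1, by decide, by rw [h]; decide⟩
        · exact ⟨0, by decide, h⟩
      have := key p hp (update y a p)
      rw [update_self, update_of_ne hab.symm, if_neg hpy, if_pos rfl, if_neg hpy, update_idem,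
        show update y a 2 = y by rw [← hy, update_eq_self], add_zero, add_zero, eq_comm,
        add_eq_left] at this
      exact this
    · intro hy
      obtain ⟨p, hp, hpy⟩ : ∃ p : Fin 3, p ≠ 2 ∧ y a ≠ p := by
        rcases eq_or_ne (y a) 0 with h | h
        · exact ⟨1, by decide, by rw [h]; decide⟩
        · exact ⟨0, by decide, h⟩
      have := key p hp (update y b p)
      rw [update_of_ne hab, update_self, if_neg hpy, if_pos rfl, update_idem,
        show update y b 2 = y by rw [← hy, update_eq_self], add_zero, eq_comm, add_eq_left] at this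
      exact this
  set y00 := update (update x₀ a 0) b 0
  set y11 := update (update x₀ a 1) b 1
  set y10 := update (update x₀ a 1) b 0
  -- the two diagonal values
  have h00 : z y00 = 0 := by
    have e : kronE (pairHom a b (tgl (show (1 : Fin 3) ≠ 0 by decide) (1 : F))) (Pi.single x₀ 1)
        = Pi.single x₀ 1 + Pi.single (update x₀ a 1) 1 :=
      hmove _ _ _ x₀ hx₀a (by rw [hx₀b]; decide)
    have hw := congrArg Z e
    rw [hpair, map_add, ← hz] at hw
    have hu : (update x₀ a 1) a ≠ 0 ∧ (update x₀ a 1) b ≠ 0 := by simp [hab.symm, hx₀b]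
    have hf := congrFun (hpair 2 0 (by decide) (Pi.single (update x₀ a 1) 1)) (update x₀ a 2)
    rw [hfix 2 0 (by decide) _ hu.1 hu.2, pairHom_mulVec hab, update_self, if_pos rfl,
      update_of_ne hab.symm, hx₀b, if_neg (by decide), if_neg (by decide), add_zero, add_zero,
      update_idem, eq_comm, add_eq_left] at hf
    have hw' := congrFun hw (update x₀ a 0)
    rw [Pi.add_apply, hf, add_zero, pairHom_mulVec hab] at hw'
    simp [hab.symm, hx₀b, update_idem] at hw'
    exact hw'
  have h11 : z y11 = 0 := by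
    have e : kronE (pairHom a b (tgl (show (0 : Fin 3) ≠ 1 by decide) (1 : F))) (Pi.single x₀ 1)
        = Pi.single x₀ 1 + Pi.single (update x₀ b 0) 1 :=
      hmove' _ _ _ x₀ (by rw [hx₀a]; decide) hx₀b
    have hw := congrArg Z e
    rw [hpair, map_add, ← hz] at hw
    have hu : (update x₀ b 0) a ≠ 1 ∧ (update x₀ b 0) b ≠ 1 := by simp [hab, hx₀a]
    have hf := congrFun (hpair 2 1 (by decide) (Pi.single (update x₀ b 0) 1))
      (update (update x₀ b 0) a 2)
    rw [hfix 2 1 (by decide) _ hu.1 hu.2, pairHom_mulVec hab, update_self, if_pos rfl,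
      update_of_ne hab.symm, update_self, if_neg (by decide), if_neg (by decide), add_zero, add_zero,
      update_idem, eq_comm, add_eq_left] at hf
    have hw' := congrFun hw (update (update x₀ b 0) a 1)
    rw [Pi.add_apply, hf, add_zero, pairHom_mulVec hab] at hw'
    simp [hab, hab.symm, update_idem] at hw'
    convert hw' using 2
    funext l
    rcases eq_or_ne l b with rfl | hlb
    · simp [y11]
    rcases eq_or_ne l a with rfl | hla
    · simp [y11, hlb]
    · simp [y11, hla, hlb]
  have hzero : z = 0 := by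
    funext y
    by_cases ho : ∃ l, l ≠ a ∧ l ≠ b ∧ y l ≠ 0
    · obtain ⟨l, hla, hlb, hl⟩ := ho
      exact hoth l hla hlb y hl
    push Not at ho
    by_cases ha2 : y a = 2
    · exact (h2 y).1 ha2
    by_cases hb2 : y b = 2
    · exact (h2 y).2 hb2
    have hy : ∀ i j : Fin 3, y a = i → y b = j → y = update (update x₀ a i) b j := by
      intro i j hi hj
      funext l
      rcases eq_or_ne l b with rfl | hlb
      · simp [hj]
      rcases eq_or_ne l a with rfl | hla
      · simp [hlb, hi]
      · simp [hla, hlb, hx₀ l hla hlb, ho l hla hlb]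
    have h01 : update (update x₀ a 0) b 1 = x₀ := by
      rw [← hx₀a, update_eq_self, ← hx₀b, update_eq_self]
    have hca : y a = 0 ∨ y a = 1 := by
      revert ha2; generalize y a = i; revert i; decide
    have hcb : y b = 0 ∨ y b = 1 := by
      revert hb2; generalize y b = i; revert i; decide
    rcases hca with ha | ha <;> rcases hcb with hb | hb <;> rw [hy _ _ ha hb]
    · exact h00
    · rw [h01]; exact h0
    · exact h1
    · exact h11
  -- everything is reached
  set G : Set (Fin t → Fin 3) := {x | Z (Pi.single x 1) = 0} with hG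
  have hstepa : ∀ x ∈ G, ∀ p q : Fin 3, p ≠ q → x a = q → x b ≠ q → update x a p ∈ G := by
    intro x hx p q h hxa hxb
    have := congrArg Z (hmove p q h x hxa hxb)
    rw [hpair, map_add, show Z (Pi.single x 1) = 0 from hx, map_zero, zero_add] at this
    exact this.symm
  have hstepb : ∀ x ∈ G, ∀ p q : Fin 3, p ≠ q → x a ≠ q → x b = q → update x b p ∈ G := by
    intro x hx p q h hxa hxb
    have := congrArg Z (hmove' p q h x hxa hxb)
    rw [hpair, map_add, show Z (Pi.single x 1) = 0 from hx, map_zero, zero_add] at this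
    exact this.symm
  have hpairs : ∀ i j : Fin 3, update (update x₀ a i) b j ∈ G := by
    have g01 : update (update x₀ a 0) b 1 ∈ G := by
      rw [← hx₀a, update_eq_self, ← hx₀b, update_eq_self]; exact hzero
    have sa : ∀ i j p : Fin 3, update (update x₀ a i) b j ∈ G → p ≠ i → j ≠ i →
        update (update x₀ a p) b j ∈ G := by
      intro i j p h hp hj
      have := hstepa _ h p i hp (by simp [hab]) (by simpa using hj)
      rwa [update_comm hab.symm, update_idem] at this
    have sb : ∀ i j p : Fin 3, update (update x₀ a i) b j ∈ G → p ≠ j → i ≠ j →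
        update (update x₀ a i) b p ∈ G := by
      intro i j p h hp hi
      have := hstepb _ h p j hp (by simpa [hab] using hi) (by simp)
      rwa [update_idem] at this
    have g11 := sa 0 1 1 g01 (by decide) (by decide)
    have g21 := sa 0 1 2 g01 (by decide) (by decide)
    have g00 := sb 0 1 0 g01 (by decide) (by decide)
    have g02 := sb 0 1 2 g01 (by decide) (by decide)
    have g20 := sb 2 1 0 g21 (by decide) (by decide)
    have g22 := sb 2 1 2 g21 (by decide) (by decide)
    have g12 := sa 0 2 1 g02 (by decide) (by decide)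
    have g10 := sa 2 0 1 g20 (by decide) (by decide)
    intro i j
    fin_cases i <;> fin_cases j <;> assumption
  have hall : ∀ (J : Finset (Fin t)) (x : Fin t → Fin 3),
      (∀ l, l ≠ a → l ≠ b → l ∉ J → x l = 0) → x ∈ G := by
    intro J
    induction J using Finset.induction_on with
    | empty =>
      intro x hx
      have : x = update (update x₀ a (x a)) b (x b) := by
        funext l
        rcases eq_or_ne l b with rfl | hlb
        · simp
        rcases eq_or_ne l a with rfl | hla
        · simp [hlb]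
        · simp [hla, hlb, hx₀ l hla hlb, hx l hla hlb]
      rw [this]; exact hpairs _ _
    | @insert l J hl ih =>
      intro x hx
      by_cases hl' : l = a ∨ l = b ∨ x l = 0
      · refine ih x fun i hia hib hiJ => ?_
        rcases eq_or_ne i l with rfl | hil
        · rcases hl' with h | h | h
          · exact absurd h hia
          · exact absurd h hib
          · exact h
        · exact hx i hia hib (by simp [hil, hiJ])
      simp only [not_or] at hl'
      have hG0 : update x l 0 ∈ G := ih _ fun i hia hib hiJ => by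
        rcases eq_or_ne i l with rfl | hil
        · simp
        · simp [hil, hx i hia hib (by simp [hil, hiJ])]
      have he : kronE (Pi.mulSingle l (tgl hl'.2.2 (1 : F))) (Pi.single (update x l 0) 1)
          = Pi.single (update x l 0) 1 + Pi.single x 1 := by
        funext y
        rw [single_mulVec_kron, Pi.add_apply]
        congr 1
        simp only [Pi.single_apply]
        by_cases hy : y l = x l
        · rw [if_pos hy]
          refine if_congr ?_ rfl rfl
          refine ⟨fun e => ?_, fun e => by rw [e]⟩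
          have := congrArg (fun f => update f l (x l)) e
          simp only [update_idem, update_eq_self] at this
          rw [← hy, update_eq_self] at this
          exact this
        · rw [if_neg hy, if_neg fun e => hy (by rw [e])]
      have := congrArg Z he
      rw [hsingle l hl'.1 hl'.2.1, map_add, show Z (Pi.single (update x l 0) 1) = 0 from hG0,
        map_zero, zero_add] at this
      exact this.symm
  refine linearMap_ext_pv fun y => ?_
  rw [LinearMap.zero_apply, pi_eq_sum_univ' (pv y), map_sum]
  refine Finset.sum_eq_zero fun x _ => ?_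
  rw [map_smul, show Z (Pi.single x 1) = 0 from hall Finset.univ x (by simp), smul_zero]

/-- No root element is conjugate in `M` to a transposition of factors. -/
theorem not_isSwap_conj {m : ℕ} [Finite F] {M : Subgroup (TV F m (s + 1) ≃ₗ[F] TV F m (s + 1))}
    (hM : Base M) (hm : 3 ≤ m) (hsc : OnlyScal M) {k : Fin (s + 1)} {w ψ : Fin m → F} (hw : w ≠ 0)
    (hψ : ψ ≠ 0) (hwψ : w ⬝ᵥ ψ = 0) {x h : TV F m (s + 1) ≃ₗ[F] TV F m (s + 1)}
    (hx : ∀ v, x v = v + rootV k w ψ v) (hh : h ∈ M) : ¬ IsSwap (h * x * h⁻¹) := by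
  classical
  rintro ⟨rfl, D, a, b, hab, hs⟩
  have : Nonempty (Fin 3) := ⟨0⟩
  obtain ⟨β, hβ, hβw, hβψ⟩ := TensorMax.exists_orth_pair (κ := Fin 3) (F := F) (by simp)
    (w := Pi.single 0 1) (ψ := Pi.single 2 1) (w' := w) (ψ' := ψ) (by simp) (by simp) (by simp)
    hw hψ hwψ
  obtain ⟨g, rfl⟩ := exists_det_one_GL hβ
  -- commuting with the root element gives a triangular part
  have hsplit : ∀ y ∈ M, Commute y x → ∃ (A : TV F 3 s ≃ₗ[F] TV F 3 s) (B : GL (Fin 3) F),
      IsTri 0 (g⁻¹ * B * g).val ∧ ∀ u v, slotConj k y ((TensorMax.pure u v))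
        = TensorMax.pure (A u) (B.val *ᵥ v) := by
    intro y hy hyx
    have hN : ∀ v, y (rootV k w ψ v) = rootV k w ψ (y v) := fun v => by
      have := LinearEquiv.congr_fun hyx.eq v
      simp only [LinearEquiv.mul_apply, hx, map_add, add_right_inj] at this
      exact this
    obtain ⟨η, hη⟩ := exists_dual hψ
    obtain ⟨A, B, hAB⟩ := exists_split hM (le_refl 3) hsc hy hw (k := k) (j := k) (v := w) fun z hz => by
      obtain ⟨u, hu⟩ := TensorMax.mem_memb.1 hz
      have : z = rootV k w ψ ((slot k).symm (TensorMax.pure u η)) := by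
        rw [rootV_apply, LinearEquiv.apply_symm_apply, pure_mulVec, dotProduct_comm, hη, one_smul,
          LinearEquiv.eq_symm_apply]
        exact hu.symm
      rw [this, hN]
      exact rootV_mem_smemb _ _ _ _
    have key : ∀ u v, (v ⬝ᵥ ψ) • TensorMax.pure (A u) (B.val *ᵥ w)
        = TensorMax.pure (((B.val *ᵥ v) ⬝ᵥ ψ) • A u) w := by
      intro u v
      have := congrArg (slot k) (hN ((slot k).symm (TensorMax.pure u v)))
      rw [rootV_apply, rootV_apply, LinearEquiv.apply_symm_apply, LinearEquiv.apply_symm_apply,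
        pure_mulVec, ← slotConj_apply, ← slotConj_apply] at this
      simp only [slotConj_apply, hAB, pure_mulVec, map_smul] at this
      rw [← this, TensorMax.pure, TensorMax.pure, smul_vecMulVec]
    obtain ⟨u, hu⟩ := exists_ne (0 : TV F 3 s)
    have hAu : A u ≠ 0 := fun h0 => hu ((LinearEquiv.map_eq_zero_iff A).1 h0)
    set μ := (B.val *ᵥ η) ⬝ᵥ ψ
    have hBw : B.val *ᵥ w = μ • w := by
      have h1 := key u η
      rw [dotProduct_comm η, hη, one_smul, TensorMax.pure, TensorMax.pure, smul_vecMulVec,
        ← vecMulVec_smul] at h1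
      obtain ⟨p, hp⟩ := Function.ne_iff.1 hAu
      funext i
      exact mul_left_cancel₀ hp (congrFun (congrFun h1 p) i)
    have hBψ : ψ ᵥ* B.val = μ • ψ := by
      refine dotProduct_eq _ _ fun v => ?_
      rw [← dotProduct_mulVec, smul_dotProduct, smul_eq_mul, dotProduct_comm ψ v, dotProduct_comm ψ]
      have h1 := key u v
      rw [hBw, TensorMax.pure, TensorMax.pure, vecMulVec_smul, smul_vecMulVec, smul_smul] at h1
      obtain ⟨p, hp⟩ := Function.ne_iff.1 hAu
      obtain ⟨i, hi⟩ := Function.ne_iff.1 hw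
      have := congrFun (congrFun h1 p) i
      simp only [Matrix.smul_apply, smul_eq_mul, vecMulVec_apply] at this
      rw [← mul_right_cancel₀ (mul_ne_zero hp hi) this, mul_comm]
    refine ⟨A, B, ?_, fun u v => hAB u v⟩
    have e1 : (g⁻¹ * B * g).val *ᵥ Pi.single 0 1 = μ • Pi.single 0 1 := by
      rw [Units.val_mul, Units.val_mul, ← mulVec_mulVec, hβw, ← mulVec_mulVec, hBw, mulVec_smul,
        ← hβw, mulVec_mulVec, ← Units.val_mul, inv_mul_cancel, Units.val_one, one_mulVec]
    have e2 : Pi.single 2 1 ᵥ* (g⁻¹ * B * g).val = μ • Pi.single 2 (1 : F) := by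
      rw [Units.val_mul, Units.val_mul, ← hβψ, vecMul_vecMul, ← mul_assoc, ← mul_assoc,
        ← Units.val_mul g g⁻¹, mul_inv_cancel, Units.val_one, one_mul, ← vecMul_vecMul, hBψ,
        smul_vecMul]
    simp only [mulVec_single_one, single_one_vecMul] at e1 e2
    have c := fun i => congrFun e1 i
    have r := fun i => congrFun e2 i
    simp only [col_apply, row_apply, Pi.smul_apply, smul_eq_mul] at c r
    refine ⟨by simpa using c 1, by simpa using c 2, by simpa using r 1, ?_, by omega, by omega,
      by omega⟩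
    rw [c 0, r 2]; simp
  -- transvections of the centraliser
  set s' := h * x * h⁻¹
  let Good (n : ℕ) (z : TV F 3 (s + 1) ≃ₗ[F] TV F 3 (s + 1)) : Prop :=
    z ∈ M ∧ Commute z s' ∧ ∃ (A : TV F 3 s ≃ₗ[F] TV F 3 s) (B : GL (Fin 3) F),
      IsTri n (g⁻¹ * B * g).val ∧ ∀ u v, slotConj k (h⁻¹ * z * h) (TensorMax.pure u v)
        = TensorMax.pure (A u) (B.val *ᵥ v)
  have hgood0 : ∀ z ∈ M, Commute z s' → Good 0 z := fun z hz hzs => by
    refine ⟨hz, hzs, hsplit _ (M.mul_mem (M.mul_mem (M.inv_mem hh) hz) hh) ?_⟩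
    have : Commute (MulAut.conj h⁻¹ z) (MulAut.conj h⁻¹ s') := hzs.map _
    simp only [MulAut.conj_apply, inv_inv, s'] at this
    convert this using 1 <;> group
  have hgood1 : ∀ n z z', Good n z → Good n z' → Good (n + 1) ⁅z, z'⁆ := by
    rintro n z z' ⟨hz, hzs, A, B, hB, hAB⟩ ⟨hz', hzs', A', B', hB', hAB'⟩
    refine ⟨?_, ?_, ⁅A, A'⁆, ⁅B, B'⁆, ?_, fun u v => ?_⟩
    · exact M.mul_mem (M.mul_mem (M.mul_mem hz hz') (M.inv_mem hz)) (M.inv_mem hz')
    · exact (((hzs.mul_left hzs').mul_left hzs.inv_left).mul_left hzs'.inv_left)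
    · have := hB.commutator hB'
      convert this using 2
      simp only [commutatorElement_def]
      group
    · have hinv : ∀ {y : TV F 3 (s + 1) ≃ₗ[F] TV F 3 (s + 1)} {A : TV F 3 s ≃ₗ[F] TV F 3 s}
          {B : GL (Fin 3) F}, (∀ u v, slotConj k y (TensorMax.pure u v)
            = TensorMax.pure (A u) (B.val *ᵥ v)) → ∀ u v, slotConj k y⁻¹ (TensorMax.pure u v)
            = TensorMax.pure (A.symm u) ((B⁻¹).val *ᵥ v) := by
        intro y A B hy u v
        apply (slotConj k y).injective
        rw [← LinearEquiv.mul_apply, ← map_mul, mul_inv_cancel, map_one, hy,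
          LinearEquiv.apply_symm_apply, mulVec_mulVec, ← Units.val_mul, mul_inv_cancel,
          Units.val_one, one_mulVec]
        rfl
      rw [show h⁻¹ * ⁅z, z'⁆ * h = (h⁻¹ * z * h) * (h⁻¹ * z' * h) * (h⁻¹ * z * h)⁻¹ *
          (h⁻¹ * z' * h)⁻¹ by rw [commutatorElement_def]; group, map_mul, map_mul, map_mul,
        LinearEquiv.mul_apply, LinearEquiv.mul_apply, LinearEquiv.mul_apply, hinv hAB', hinv hAB,
        hAB', hAB, mulVec_mulVec, mulVec_mulVec, mulVec_mulVec, ← Units.val_mul, ← Units.val_mul,
        ← Units.val_mul, commutatorElement_def, commutatorElement_def]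
      simp [mul_assoc]
  have hgood : ∀ (φ : GL (Fin 3) F →* (TV F 3 (s + 1) ≃ₗ[F] TV F 3 (s + 1))),
      (∀ p q : Fin 3, ∀ hpq : p ≠ q, ∀ c, φ (tgl hpq c) ∈ M ∧ Commute (φ (tgl hpq c)) s') →
      ∀ n, ∀ p q : Fin 3, ∀ hpq : p ≠ q, ∀ c, Good n (φ (tgl hpq c)) := by
    intro φ hφ n
    induction n with
    | zero => exact fun p q hpq c => hgood0 _ (hφ p q hpq c).1 (hφ p q hpq c).2
    | succ n ih =>
      intro p q hpq c
      obtain ⟨r, hrp, hrq⟩ : ∃ r : Fin 3, p ≠ r ∧ r ≠ q := by
        revert hpq; revert p q; decide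
      rw [← tgl_commutator hpq hrp hrq c, map_commutatorElement]
      exact hgood1 n _ _ (ih p r hrp c) (ih r q hrq 1)
  let conjD : (Fin (s + 1) → GL (Fin 3) F) →* (TV F 3 (s + 1) ≃ₗ[F] TV F 3 (s + 1)) :=
    (MulAut.conj (kronE D)).toMonoidHom.comp kronE
  have hconjD : ∀ fam : Fin (s + 1) → GL (Fin 3) F, (∀ i, (fam i).val.det = 1) →
      (fun i => fam (Equiv.swap a b i)) = fam → conjD fam ∈ M ∧ Commute (conjD fam) s' := by
    intro fam hdet hfam
    refine ⟨?_, ?_⟩
    · change kronE D * kronE fam * (kronE D)⁻¹ ∈ M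
      rw [← map_inv, ← map_mul, ← map_mul]
      exact hM.kron_mem _ fun i => by
        rw [Pi.mul_apply, Pi.mul_apply, Pi.inv_apply, Units.val_mul, Units.val_mul, det_units_conj,
          hdet]
    · have hc : Commute (kronE fam) (permE (Equiv.swap a b)) := by
        rw [Commute, SemiconjBy, permE_mul_kronE, Equiv.swap_inv, hfam]
      have := hc.map (MulAut.conj (kronE D)).toMonoidHom
      change Commute (conjD fam) _ at this
      rw [show (MulAut.conj (kronE D)).toMonoidHom (permE (Equiv.swap a b)) = s' from hs.symm] at this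
      exact this
  -- everything commutes with the conjugated right factor
  let R : GL (Fin 3) F → (TV F 3 (s + 1) ≃ₗ[F] TV F 3 (s + 1)) := fun u =>
    (kronE D)⁻¹ * (h * kronE (Fin.insertNth (α := fun _ => GL (Fin 3) F) k u 1) * h⁻¹) * kronE D
  have hR : ∀ (φ : GL (Fin 3) F →* (Fin (s + 1) → GL (Fin 3) F)),
      (∀ p q : Fin 3, ∀ hpq : p ≠ q, ∀ c, (∀ i, (φ (tgl hpq c) i).val.det = 1) ∧
        (fun i => φ (tgl hpq c) (Equiv.swap a b i)) = φ (tgl hpq c)) →
      ∀ u, ∀ p q : Fin 3, ∀ hpq : p ≠ q, Commute (R u) (kronE (φ (tgl hpq (1 : F)))) := by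
    intro φ hφ u p q hpq
    obtain ⟨-, -, A, B, hB, hAB⟩ := hgood (conjD.comp φ)
      (fun p q hpq c => hconjD _ (hφ p q hpq c).1 (hφ p q hpq c).2) 3 p q hpq 1
    have hB1 : B = 1 := by
      have : g⁻¹ * B * g = 1 := Units.ext (hB.eq_one le_rfl)
      calc B = g * (g⁻¹ * B * g) * g⁻¹ := by group
        _ = 1 := by rw [this]; group
    subst hB1
    set y := h⁻¹ * (conjD.comp φ) (tgl hpq (1 : F)) * h
    set K := kronE (Fin.insertNth (α := fun _ => GL (Fin 3) F) k u 1)
    have hyK : Commute y K := by
      refine linearEquiv_ext_pv fun z => (slot k).injective ?_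
      have hy : ∀ u v, slot k (y ((slot k).symm (TensorMax.pure u v))) = TensorMax.pure (A u) v :=
        fun u v => by simpa using hAB u v
      have hK : ∀ X, slot k (K ((slot k).symm X)) = X * (u : Matrix (Fin 3) (Fin 3) F)ᵀ :=
        kronE_insertNth_one k u
      have hK' : ∀ v v', slot k (K ((slot k).symm (TensorMax.pure v v')))
          = TensorMax.pure v (u.val *ᵥ v') := fun v v' => by
        rw [hK, TensorMax.pure, vecMulVec_mul, vecMul_transpose]; rfl
      clear_value y K
      have e1 : slot k (pv z) = TensorMax.pure (pv (Fin.removeNth k z)) (z k) := slot_pv k z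
      have e0 : pv z = (slot k).symm (TensorMax.pure (pv (Fin.removeNth k z)) (z k)) := by
        rw [← e1, LinearEquiv.symm_apply_apply]
      have hK2 := fun v v' => (LinearEquiv.eq_symm_apply (slot k)).2 (hK' v v')
      have hy2 := fun v v' => (LinearEquiv.eq_symm_apply (slot k)).2 (hy v v')
      rw [LinearEquiv.mul_apply, LinearEquiv.mul_apply, e0, hK2, hy2, hy2, hK2]
    have h2 := ((hyK.map (MulAut.conj h).toMonoidHom).map (MulAut.conj (kronE D)⁻¹).toMonoidHom).symm
    convert h2 using 1
    · simp [R, K, mul_assoc]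
    · simp [y, conjD, mul_assoc]
  have hpairM : ∀ u, ∀ p q : Fin 3, ∀ hpq : p ≠ q,
      Commute (R u) (kronE (pairHom a b (tgl hpq (1 : F)))) :=
    hR (pairHom a b) fun p q hpq c => ⟨fun i => by
        by_cases hi : i = a ∨ i = b <;> simp [pairHom, hi, single_det_one hpq],
      funext fun i => by
        rcases eq_or_ne i a with rfl | hia
        · simp [pairHom]
        rcases eq_or_ne i b with rfl | hib
        · simp [pairHom]
        · simp [pairHom, Equiv.swap_apply_of_ne_of_ne hia hib]⟩
  have hsingM : ∀ l, l ≠ a → l ≠ b → ∀ u, ∀ p q : Fin 3, ∀ hpq : p ≠ q,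
      Commute (R u) (kronE (Pi.mulSingle l (tgl hpq (1 : F)))) := fun l hla hlb =>
    hR (MonoidHom.mulSingle (fun _ : Fin (s + 1) => GL (Fin 3) F) l) fun p q hpq c => ⟨fun i => by
        rcases eq_or_ne i l with rfl | hil <;> simp [*, single_det_one hpq],
      funext fun i => by
        rcases eq_or_ne i l with rfl | hil
        · simp [Equiv.swap_apply_of_ne_of_ne hla hlb]
        · have : Equiv.swap a b i ≠ l := fun e => hil ((Equiv.swap a b).injective
            (e.trans (Equiv.swap_apply_of_ne_of_ne hla hlb).symm))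
          simp [hil, this]⟩
  -- count
  let U : F × F × F → GL (Fin 3) F := fun c =>
    Matrix.GeneralLinearGroup.mkOfDetNeZero !![1, c.1, c.2.1; 0, 1, c.2.2; 0, 0, 1]
      (by rw [Matrix.det_fin_three]; simp)
  let x₀ : Fin (s + 1) → Fin 3 := fun i => if i = b then 1 else 0
  let ev : F × F × F → F × F := fun c => (R (U c) (Pi.single x₀ 1) x₀,
    R (U c) (Pi.single x₀ 1) (update (update x₀ a 1) b 0))
  have hev : Function.Injective ev := by
    intro c c' hcc
    simp only [ev, Prod.mk.injEq] at hcc
    have hdiff : (R (U c)).toLinearMap - (R (U c')).toLinearMap = 0 :=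
      commutant_small hab _
        (fun p q hpq v => by
          simp only [LinearMap.sub_apply, LinearEquiv.coe_coe, map_sub, ← LinearEquiv.mul_apply,
            (hpairM _ p q hpq).eq])
        (fun l hla hlb p q hpq v => by
          simp only [LinearMap.sub_apply, LinearEquiv.coe_coe, map_sub, ← LinearEquiv.mul_apply,
            (hsingM l hla hlb _ p q hpq).eq])
        x₀ (by simp [x₀, hab]) (by simp [x₀]) (fun l _ hlb => by simp [x₀, hlb])
        (by rw [LinearMap.sub_apply, Pi.sub_apply, LinearEquiv.coe_coe, LinearEquiv.coe_coe, hcc.1,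
          sub_self])
        (by rw [LinearMap.sub_apply, Pi.sub_apply, LinearEquiv.coe_coe, LinearEquiv.coe_coe, hcc.2,
          sub_self])
    have hRR : R (U c) = R (U c') := LinearEquiv.toLinearMap_injective (sub_eq_zero.1 hdiff)
    simp only [R, mul_left_inj, mul_right_inj] at hRR
    obtain ⟨u, hu⟩ := exists_ne (0 : TV F 3 s)
    have hU : (U c).val = (U c').val := by
      refine Matrix.ext_of_mulVec_single fun i => ?_
      have := congrArg (fun e => slotConj k e (TensorMax.pure u (Pi.single i (1 : F)))) hRR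
      simp only [kronE_insertNth_one, TensorMax.pure, vecMulVec_mul, vecMul_transpose] at this
      obtain ⟨p, hp⟩ := Function.ne_iff.1 hu
      funext j
      exact mul_left_cancel₀ hp (congrFun (congrFun this p) j)
    have e := fun i j => congrFun (congrFun hU i) j
    exact Prod.ext (e 0 1) (Prod.ext (e 0 2) (e 1 2))
  have := Nat.card_le_card_of_injective ev hev
  rw [Nat.card_prod, Nat.card_prod] at this
  have := Finite.one_lt_card (α := F)
  nlinarith

end CfsgLib.WreathTensor14
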